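import Cfsg.Agent.H881.PureS_mg
import Cfsg.Agent.H881.Wrap
set_option linter.all false

-- part: H881/PA3
section
/-!
Part A: contraction of an operator along a slot.
-/

set_option autoImplicit false
set_option linter.unusedSectionVars false

namespace Cfsg.Agent.H881

open Module Matrix Cfsg.Agent.ClassicalGeometry Cfsg.Agent.H880 Cfsg.Agent.H919

section Entries

variable {F : Type*} [Field F] {k t : ℕ}

theorem slotMat_update (m : Fin t) (x : Matrix (Fin k) (Fin k) F) (f : Fin t → Fin k) (c : Fin k) :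
    slotMat m x f (Function.update f m c) = x (f m) c := by
  rw [slotMat, pureMat_apply, ← Finset.mul_prod_erase _ _ (Finset.mem_univ m), Function.update_self,
    Function.update_self, Finset.prod_eq_one, mul_one]
  intro j hj
  have hjm := Finset.ne_of_mem_erase hj
  rw [Function.update_of_ne hjm, Function.update_of_ne hjm, Matrix.one_apply_eq]

theorem slotMat_update' (m : Fin t) (x : Matrix (Fin k) (Fin k) F) (g : Fin t → Fin k) (c : Fin k) :
    slotMat m x (Function.update g m c) g = x c (g m) := by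
  rw [slotMat, pureMat_apply, ← Finset.mul_prod_erase _ _ (Finset.mem_univ m), Function.update_self,
    Function.update_self, Finset.prod_eq_one, mul_one]
  intro j hj
  have hjm := Finset.ne_of_mem_erase hj
  rw [Function.update_of_ne hjm, Function.update_of_ne hjm, Matrix.one_apply_eq]

theorem slotMat_eq_zero (m : Fin t) (x : Matrix (Fin k) (Fin k) F) {f g : Fin t → Fin k} {j : Fin t} (hj : j ≠ m)
    (hfg : f j ≠ g j) : slotMat m x f g = 0 := by
  rw [slotMat, pureMat_apply]
  exact Finset.prod_eq_zero (Finset.mem_univ j) (by rw [Function.update_of_ne hj, Matrix.one_apply_ne hfg])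

theorem exists_ne_of_not_range (m : Fin t) {f h : Fin t → Fin k} (hh : h ∉ Set.range fun c => Function.update f m c) :
    ∃ j, j ≠ m ∧ f j ≠ h j := by
  by_contra hcon
  push Not at hcon
  refine hh ⟨h m, funext fun j => ?_⟩
  by_cases hj : j = m
  · subst hj
    exact Function.update_self ..
  · show Function.update f m (h m) j = h j
    rw [Function.update_of_ne hj, hcon j hj]

theorem slotMat_mul_apply (m : Fin t) (x : Matrix (Fin k) (Fin k) F) (L : Matrix (Fin t → Fin k) (Fin t → Fin k) F)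
    (f g : Fin t → Fin k) : (slotMat m x * L) f g = ∑ c, x (f m) c * L (Function.update f m c) g := by
  rw [Matrix.mul_apply]
  refine (Fintype.sum_of_injective (fun c => Function.update f m c) (Function.update_injective f m) _ _ ?_ ?_).symm
  · intro h hh
    obtain ⟨j, hj, hfj⟩ := exists_ne_of_not_range m hh
    rw [slotMat_eq_zero m x hj hfj, zero_mul]
  · intro c
    rw [slotMat_update]

theorem mul_slotMat_apply (m : Fin t) (x : Matrix (Fin k) (Fin k) F) (L : Matrix (Fin t → Fin k) (Fin t → Fin k) F)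
    (f g : Fin t → Fin k) : (L * slotMat m x) f g = ∑ c, L f (Function.update g m c) * x c (g m) := by
  rw [Matrix.mul_apply]
  refine (Fintype.sum_of_injective (fun c => Function.update g m c) (Function.update_injective g m) _ _ ?_ ?_).symm
  · intro h hh
    obtain ⟨j, hj, hfj⟩ := exists_ne_of_not_range m hh
    rw [slotMat_eq_zero m x hj (Ne.symm hfj), mul_zero]
  · intro c
    rw [slotMat_update']

end Entries

section Ctr

variable {F : Type*} [Field F] [Finite F] {σ : F →+* F} {k t : ℕ}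

theorem slotMat_sum {ι : Type*} (S : Finset ι) (m : Fin t) (x : ι → Matrix (Fin k) (Fin k) F) :
    slotMat m (∑ j ∈ S, x j) = ∑ j ∈ S, slotMat m (x j) := by
  have := map_sum (slotEmb (F := F) (m := k) m) x S
  simpa only [slotEmb_apply] using this

theorem sum_ee_right (b v : Fin k → F) :
    ∑ j, stB σ k v (Pi.single j 1) • ee σ b (Pi.single j (1 : F) : Fin k → F) = ee σ b v := by
  ext p q
  rw [Matrix.sum_apply, Finset.sum_eq_single q]
  · rw [stB_single_right, Matrix.smul_apply]
    simp only [ee, vecMulVec_apply, Function.comp_apply, Pi.single_eq_same, map_one, mul_one, smul_eq_mul]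
    exact mul_comm _ _
  · intro j _ hj
    rw [Matrix.smul_apply]
    simp only [ee, vecMulVec_apply, Function.comp_apply, Pi.single_eq_of_ne (Ne.symm hj), map_zero, mul_zero, smul_zero]
  · intro h; exact absurd (Finset.mem_univ _) h

theorem sum_ee_left (b u : Fin k → F) :
    ∑ j, stB σ k (Pi.single j 1) u • ee σ (Pi.single j (1 : F) : Fin k → F) b = ee σ u b := by
  ext p q
  rw [Matrix.sum_apply, Finset.sum_eq_single p]
  · rw [stB_single_left, Matrix.smul_apply]
    simp only [ee, vecMulVec_apply, Function.comp_apply, Pi.single_eq_same, one_mul, smul_eq_mul]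
  · intro j _ hj
    rw [Matrix.smul_apply]
    simp only [ee, vecMulVec_apply, Function.comp_apply, Pi.single_eq_of_ne (Ne.symm hj), zero_mul, smul_zero]
  · intro h; exact absurd (Finset.mem_univ _) h

theorem sum_ee (x : Matrix (Fin k) (Fin k) F) :
    ∑ j, ee σ (x *ᵥ (Pi.single j 1)) (Pi.single j (1 : F) : Fin k → F) = x := by
  ext p q
  rw [Matrix.sum_apply, Finset.sum_eq_single q]
  · simp only [ee, vecMulVec_apply, Function.comp_apply, Pi.single_eq_same, map_one, mul_one,
      Matrix.mulVec_single_one, Matrix.col_apply]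
  · intro j _ hj
    simp only [ee, vecMulVec_apply, Function.comp_apply, Pi.single_eq_of_ne (Ne.symm hj), map_zero, mul_zero]
  · intro h; exact absurd (Finset.mem_univ _) h

/-- Contraction of `L` along the slot `m`. -/
def ctr (σ : F →+* F) (m : Fin t) (b b' : Fin k → F) (L : Matrix (Fin t → Fin k) (Fin t → Fin k) F) :
    Matrix (Fin t → Fin k) (Fin t → Fin k) F :=
  ∑ j, slotMat m (ee σ (Pi.single j 1) b) * L * slotMat m (ee σ b' (Pi.single j 1))

theorem ee_mul_ctr (m : Fin t) (b b' u v : Fin k → F) (L : Matrix (Fin t → Fin k) (Fin t → Fin k) F) :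
    slotMat m (ee σ u v) * ctr σ m b b' L = slotMat m (ee σ u b) * L * slotMat m (ee σ b' v) := by
  unfold ctr
  rw [Finset.mul_sum]
  calc ∑ j, slotMat m (ee σ u v) * (slotMat m (ee σ (Pi.single j 1) b) * L * slotMat m (ee σ b' (Pi.single j 1)))
      = ∑ j, slotMat m (ee σ u b) * L * slotMat m (stB σ k v (Pi.single j 1) • ee σ b' (Pi.single j (1 : F) : Fin k → F)) := by
        refine Finset.sum_congr rfl fun j _ => ?_
        rw [mul_assoc (slotMat m (ee σ (Pi.single j 1) b)), ← mul_assoc, ← slotMat_mul, ee_mul, slotMat_smul,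
          slotMat_smul, Matrix.smul_mul, Matrix.mul_smul, mul_assoc]
    _ = _ := by rw [← Finset.mul_sum, ← slotMat_sum, sum_ee_right]

theorem ctr_mul_ee (m : Fin t) (b b' u v : Fin k → F) (L : Matrix (Fin t → Fin k) (Fin t → Fin k) F) :
    ctr σ m b b' L * slotMat m (ee σ u v) = slotMat m (ee σ u b) * L * slotMat m (ee σ b' v) := by
  unfold ctr
  rw [Finset.sum_mul]
  calc ∑ j, slotMat m (ee σ (Pi.single j 1) b) * L * slotMat m (ee σ b' (Pi.single j 1)) * slotMat m (ee σ u v)
      = ∑ j, slotMat m (stB σ k (Pi.single j 1) u • ee σ (Pi.single j (1 : F) : Fin k → F) b) *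
        (L * slotMat m (ee σ b' v)) := by
        refine Finset.sum_congr rfl fun j _ => ?_
        rw [mul_assoc, ← slotMat_mul, ee_mul, slotMat_smul, slotMat_smul, Matrix.smul_mul, Matrix.mul_smul, mul_assoc]
    _ = _ := by rw [← Finset.sum_mul, ← slotMat_sum, sum_ee_left, mul_assoc]

theorem comm_of_ee (m : Fin t) {L : Matrix (Fin t → Fin k) (Fin t → Fin k) F}
    (h : ∀ u v, L * slotMat m (ee σ u v) = slotMat m (ee σ u v) * L) (x : Matrix (Fin k) (Fin k) F) :
    L * slotMat m x = slotMat m x * L := by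
  rw [← sum_ee (σ := σ) x, slotMat_sum, Finset.mul_sum, Finset.sum_mul]
  exact Finset.sum_congr rfl fun j _ => h _ _

theorem ctr_comm (m : Fin t) (b b' : Fin k → F) (L : Matrix (Fin t → Fin k) (Fin t → Fin k) F)
    (x : Matrix (Fin k) (Fin k) F) : ctr σ m b b' L * slotMat m x = slotMat m x * ctr σ m b b' L := by
  apply comm_of_ee (σ := σ) m
  intro u v
  rw [ee_mul_ctr, ctr_mul_ee]

theorem ctr_comm_other {m j : Fin t} (hmj : m ≠ j) (b b' : Fin k → F) {L : Matrix (Fin t → Fin k) (Fin t → Fin k) F}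
    (h : ∀ x, L * slotMat j x = slotMat j x * L) (x : Matrix (Fin k) (Fin k) F) :
    ctr σ m b b' L * slotMat j x = slotMat j x * ctr σ m b b' L := by
  have h1 : Commute (slotMat j x) (ctr σ m b b' L) := by
    refine Commute.sum_right _ _ _ fun i _ => ?_
    refine Commute.mul_right (Commute.mul_right (slotMat_commute (Ne.symm hmj) _ _) ?_) (slotMat_commute (Ne.symm hmj) _ _)
    exact (h x).symm
  exact h1.symm

/-- **Scalar lemma.** -/
theorem comm_of_ctr (hσ : σ ≠ RingHom.id F) (hσ2 : ∀ x : F, σ (σ x) = x) (m : Fin t)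
    {L : Matrix (Fin t → Fin k) (Fin t → Fin k) F}
    (h : ∀ b, stB σ k b b = 0 → ctr σ m b b L = 0) (x : Matrix (Fin k) (Fin k) F) :
    L * slotMat m x = slotMat m x * L := by
  have h1 : ∀ f g : Fin t → Fin k, ∃ c : F, ∀ p q, L (Function.update f m p) (Function.update g m q) =
      if p = q then c else 0 := by
    intro f g
    obtain ⟨c, hc⟩ := scalar_of_isotropic hσ hσ2
      (Matrix.mulVecLin (Matrix.of fun p q => L (Function.update f m p) (Function.update g m q)))
      (fun b hb => by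
        have h2 : (slotMat m (ee σ (fun _ => (1 : F)) b) * L * slotMat m (ee σ b (fun _ => (1 : F)))) f g = 0 := by
          rw [← ee_mul_ctr, h b hb, mul_zero]
          rfl
        rw [mul_slotMat_apply] at h2
        rw [stB_apply]
        simp only [slotMat_mul_apply] at h2
        simp only [ee, vecMulVec_apply, Function.comp_apply, map_one, mul_one, one_mul, Finset.sum_mul] at h2
        rw [Finset.sum_comm] at h2
        rw [← h2]
        refine Finset.sum_congr rfl fun p _ => ?_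
        rw [Matrix.mulVecLin_apply]
        show σ (b p) * ∑ q, L (Function.update f m p) (Function.update g m q) * b q = _
        rw [Finset.mul_sum]
        refine Finset.sum_congr rfl fun q _ => ?_
        ring)
    refine ⟨c, fun p q => ?_⟩
    have h3 := congrFun (hc (Pi.single q 1)) p
    rw [Matrix.mulVecLin_apply, Matrix.mulVec_single_one] at h3
    rw [show L (Function.update f m p) (Function.update g m q) =
      (Matrix.of fun p q => L (Function.update f m p) (Function.update g m q)).col q p from rfl, h3, Pi.smul_apply,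
      smul_eq_mul, Pi.single_apply]
    split_ifs <;> simp
  ext f g
  obtain ⟨c, hc⟩ := h1 f g
  rw [mul_slotMat_apply, slotMat_mul_apply]
  have e1 : ∀ q, L f (Function.update g m q) = if f m = q then c else 0 := by
    intro q
    have := hc (f m) q
    rwa [Function.update_eq_self] at this
  have e2 : ∀ p, L (Function.update f m p) g = if p = g m then c else 0 := by
    intro p
    have := hc p (g m)
    rwa [Function.update_eq_self m g] at this
  simp only [e1, e2]
  simp [mul_comm]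

end Ctr

end Cfsg.Agent.H881
end

-- part: H881/PA4
section
/-!
Part A, first half: if the layer is not scalar then `M` contains `1 + c φ ⊗ ⋯` over at least two slots.
-/

set_option autoImplicit false
set_option linter.unusedSectionVars false

namespace Cfsg.Agent.H881

open Module Matrix Cfsg.Agent.ClassicalGeometry Cfsg.Agent.H880 Cfsg.Agent.H919

section PS

variable {F : Type*} [Field F] [Finite F] {σ : F →+* F} {k t : ℕ}

theorem slot_mul_pureMat (m : Fin t) (x : Matrix (Fin k) (Fin k) F) (D : Fin t → Matrix (Fin k) (Fin k) F) :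
    slotMat m x * pureMat D = pureMat (Function.update D m (x * D m)) := by
  rw [slotMat, pureMat_mul]
  congr 1
  funext j
  by_cases hj : j = m
  · subst hj
    rw [Function.update_self, Function.update_self]
  · rw [Function.update_of_ne hj, Function.update_of_ne hj, one_mul]

theorem pureMat_mul_slot (m : Fin t) (x : Matrix (Fin k) (Fin k) F) (D : Fin t → Matrix (Fin k) (Fin k) F) :
    pureMat D * slotMat m x = pureMat (Function.update D m (D m * x)) := by
  rw [slotMat, pureMat_mul]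
  congr 1
  funext j
  by_cases hj : j = m
  · subst hj
    rw [Function.update_self, Function.update_self]
  · rw [Function.update_of_ne hj, Function.update_of_ne hj, mul_one]

theorem pureMat_slot_comm {m : Fin t} {D : Fin t → Matrix (Fin k) (Fin k) F} (hD : D m = 1)
    (x : Matrix (Fin k) (Fin k) F) : pureMat D * slotMat m x = slotMat m x * pureMat D := by
  rw [slot_mul_pureMat, pureMat_mul_slot, hD, mul_one, one_mul]

/-- `φ_{v_j}` in the slots `j ∈ S`. -/
def pS (σ : F →+* F) (S : Finset (Fin t)) (v : Fin t → Fin k → F) : Matrix (Fin t → Fin k) (Fin t → Fin k) F :=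
  pureMat (fun j => if j ∈ S then ee σ (v j) (v j) else 1)

theorem pS_congr {S : Finset (Fin t)} {v v' : Fin t → Fin k → F} (h : ∀ j ∈ S, v j = v' j) : pS σ S v = pS σ S v' := by
  unfold pS
  congr 1
  funext j
  by_cases hj : j ∈ S
  · rw [if_pos hj, if_pos hj, h j hj]
  · rw [if_neg hj, if_neg hj]

theorem pS_comm {S : Finset (Fin t)} {m : Fin t} (hm : m ∉ S) (v : Fin t → Fin k → F) (x : Matrix (Fin k) (Fin k) F) :
    pS σ S v * slotMat m x = slotMat m x * pS σ S v := pureMat_slot_comm (if_neg hm) x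

theorem pS_insert {S : Finset (Fin t)} {m : Fin t} (hm : m ∉ S) (v : Fin t → Fin k → F) (d : Fin k → F) :
    pS σ S v * slotMat m (ee σ d d) = pS σ (insert m S) (Function.update v m d) := by
  unfold pS
  rw [pureMat_mul_slot]
  congr 1
  funext j
  by_cases hj : j = m
  · subst hj
    rw [Function.update_self, Function.update_self, if_neg hm, one_mul, if_pos (Finset.mem_insert_self _ _)]
  · rw [Function.update_of_ne hj, Function.update_of_ne hj]
    by_cases hjS : j ∈ S
    · rw [if_pos hjS, if_pos (Finset.mem_insert_of_mem hjS)]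
    · rw [if_neg hjS, if_neg (by rw [Finset.mem_insert]; tauto)]

theorem pS_erase {S : Finset (Fin t)} {i : Fin t} (hi : i ∈ S) (v : Fin t → Fin k → F) :
    pS σ (S.erase i) v * slotMat i (ee σ (v i) (v i)) = pS σ S v := by
  rw [pS_insert (Finset.notMem_erase i S), Function.update_eq_self, Finset.insert_erase hi]

theorem ctr_zero_vec (m : Fin t) (L : Matrix (Fin t → Fin k) (Fin t → Fin k) F) : ctr σ m 0 0 L = 0 := by
  unfold ctr
  refine Finset.sum_eq_zero fun j _ => ?_
  have h1 : ee σ (0 : Fin k → F) (Pi.single j (1 : F) : Fin k → F) = 0 := by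
    unfold ee
    exact Matrix.zero_vecMulVec _
  have h2 : slotMat m (0 : Matrix (Fin k) (Fin k) F) = (0 : Matrix (Fin t → Fin k) (Fin t → Fin k) F) := by
    have := slotMat_smul m (0 : F) (0 : Matrix (Fin k) (Fin k) F)
    rwa [zero_smul, zero_smul] at this
  rw [h1, h2, mul_zero]

theorem exists_ctr_ne (hσ : σ ≠ RingHom.id F) (hσ2 : ∀ x : F, σ (σ x) = x) {m : Fin t}
    {L : Matrix (Fin t → Fin k) (Fin t → Fin k) F} (h : ¬ ∀ x, L * slotMat m x = slotMat m x * L) :
    ∃ b : Fin k → F, b ≠ 0 ∧ stB σ k b b = 0 ∧ ctr σ m b b L ≠ 0 := by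
  by_contra hcon
  push Not at hcon
  refine h (comm_of_ctr hσ hσ2 m fun b hb => ?_)
  by_cases hb0 : b = 0
  · rw [hb0, ctr_zero_vec]
  · exact hcon b hb0 hb

end PS

section Process

variable {F : Type*} [Field F] [Finite F] {σ : F →+* F} {k s : ℕ}
  {M : Subgroup (Matrix.GeneralLinearGroup (Fin (s + 1) → Fin k) F)}

/-- One more slot is made pure. -/
theorem pS_step (hσ : σ ≠ RingHom.id F) (hσ2 : ∀ x : F, σ (σ x) = x) (hk : 3 ≤ k)
    (hqk : 4 ≤ k ∨ ∃ c : F, c ≠ 0 ∧ σ c * c ≠ 1) (hM : OverT σ M) {i m : Fin (s + 1)} {T : Finset (Fin (s + 1))}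
    (hi : i ∈ T) (hm : m ∉ T) {v : Fin (s + 1) → Fin k → F} (hv : ∀ j ∈ T, v j ≠ 0 ∧ stB σ k (v j) (v j) = 0)
    {L : Matrix (Fin (s + 1) → Fin k) (Fin (s + 1) → Fin k) F} (hL : ∀ j ∈ T, ∀ x, L * slotMat j x = slotMat j x * L)
    (h : ∃ g ∈ M, (g : Matrix (Fin (s + 1) → Fin k) (Fin (s + 1) → Fin k) F) = 1 + pS σ T v * L)
    {b d : Fin k → F} (hb0 : b ≠ 0) (hb : stB σ k b b = 0) (hd0 : d ≠ 0) (hd : stB σ k d d = 0) :
    ∃ g ∈ M, (g : Matrix (Fin (s + 1) → Fin k) (Fin (s + 1) → Fin k) F) =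
      1 + pS σ (insert m T) (Function.update v m d) * ctr σ m b b L := by
  have hmi : m ≠ i := fun h => hm (h ▸ hi)
  obtain ⟨g, hg, hgL⟩ := h
  have hiT : i ∉ T.erase i := Finset.notMem_erase i T
  have hmT : m ∉ T.erase i := fun h => hm (Finset.mem_of_mem_erase h)
  have h1 : KI M σ i (v i) (pS σ (T.erase i) v * L) := by
    refine ⟨fun x => ?_, g, hg, ?_⟩
    · rw [mul_assoc, hL i hi, ← mul_assoc, pS_comm hiT, mul_assoc]
    · rw [hgL, mul_assoc, hL i hi, ← mul_assoc, pS_erase hi]
  obtain ⟨_, g', hg', hgK⟩ := h1.step hσ hσ2 hk hqk hM hmi (hv i hi).1 (hv i hi).2 hb0 hb hd0 hd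
  refine ⟨g', hg', ?_⟩
  rw [hgK]
  congr 1
  have e1 : slotMat m (ee σ d b) * (pS σ (T.erase i) v * L) * slotMat m (ee σ b d) =
      pS σ (T.erase i) v * (slotMat m (ee σ d b) * L * slotMat m (ee σ b d)) := by
    rw [← mul_assoc, ← pS_comm hmT]
    simp only [mul_assoc]
  rw [e1, ← ee_mul_ctr, mul_assoc, mul_assoc, ctr_comm_other hmi b b (hL i hi), ← mul_assoc (slotMat m (ee σ d d)),
    (slotMat_commute hmi (ee σ d d) (ee σ (v i) (v i))).eq, mul_assoc (slotMat i _), ← mul_assoc (pS σ (T.erase i) v),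
    pS_erase hi, ← mul_assoc, pS_insert hm]

open Classical in
theorem pS_process (hσ : σ ≠ RingHom.id F) (hσ2 : ∀ x : F, σ (σ x) = x) (hk : 3 ≤ k)
    (hqk : 4 ≤ k ∨ ∃ c : F, c ≠ 0 ∧ σ c * c ≠ 1) (hM : OverT σ M) {i : Fin (s + 1)} (n : ℕ) :
    ∀ (T : Finset (Fin (s + 1))) (v : Fin (s + 1) → Fin k → F)
      (L : Matrix (Fin (s + 1) → Fin k) (Fin (s + 1) → Fin k) F), i ∈ T →
      (∀ j ∈ T, v j ≠ 0 ∧ stB σ k (v j) (v j) = 0) → L ≠ 0 → (∀ j ∈ T, ∀ x, L * slotMat j x = slotMat j x * L) →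
      (Finset.univ.filter fun m => ¬ ∀ x, L * slotMat m x = slotMat m x * L).card ≤ n →
      (∃ g ∈ M, (g : Matrix (Fin (s + 1) → Fin k) (Fin (s + 1) → Fin k) F) = 1 + pS σ T v * L) →
      ∃ (T' : Finset (Fin (s + 1))) (v' : Fin (s + 1) → Fin k → F) (c : F), T ⊆ T' ∧ c ≠ 0 ∧
        (∀ j ∈ T', v' j ≠ 0 ∧ stB σ k (v' j) (v' j) = 0) ∧
        ∃ g ∈ M, (g : Matrix (Fin (s + 1) → Fin k) (Fin (s + 1) → Fin k) F) = 1 + c • pS σ T' v' := by
  induction n with
  | zero =>
    intro T v L hi hv hL0 hL hn h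
    rw [Nat.le_zero, Finset.card_eq_zero, Finset.filter_eq_empty_iff] at hn
    obtain ⟨c, hc⟩ := scalar_of_commute_slots (M := L) (fun j x => by
      have := hn (Finset.mem_univ j)
      push Not at this
      exact this x)
    refine ⟨T, v, c, Finset.Subset.refl _, ?_, hv, ?_⟩
    · rintro rfl
      exact hL0 (by rw [hc, zero_smul])
    · obtain ⟨g, hg, hgL⟩ := h
      exact ⟨g, hg, by rw [hgL, hc, Matrix.mul_smul, mul_one]⟩
  | succ n ih =>
    intro T v L hi hv hL0 hL hn h
    by_cases hall : ∀ m x, L * slotMat m x = slotMat m x * L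
    · obtain ⟨c, hc⟩ := scalar_of_commute_slots (M := L) hall
      refine ⟨T, v, c, Finset.Subset.refl _, ?_, hv, ?_⟩
      · rintro rfl
        exact hL0 (by rw [hc, zero_smul])
      · obtain ⟨g, hg, hgL⟩ := h
        exact ⟨g, hg, by rw [hgL, hc, Matrix.mul_smul, mul_one]⟩
    · push Not at hall
      obtain ⟨m, x, hx⟩ := hall
      have hmL : ¬ ∀ x, L * slotMat m x = slotMat m x * L := fun h => hx (h x)
      have hmT : m ∉ T := fun h => hmL (hL m h)
      obtain ⟨b, hb0, hb, hbL⟩ := exists_ctr_ne hσ hσ2 hmL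
      have h1 := pS_step hσ hσ2 hk hqk hM hi hmT hv hL h hb0 hb hb0 hb
      obtain ⟨T', v', c, hT, hc, hv', hg⟩ := ih (insert m T) (Function.update v m b) (ctr σ m b b L)
        (Finset.mem_insert_of_mem hi) (by
          intro j hj
          rcases Finset.mem_insert.mp hj with rfl | hjT
          · rw [Function.update_self]
            exact ⟨hb0, hb⟩
          · rw [Function.update_of_ne (by rintro rfl; exact hmT hjT)]
            exact hv j hjT) hbL (by
          intro j hj
          rcases Finset.mem_insert.mp hj with rfl | hjT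
          · exact ctr_comm _ b b L
          · exact ctr_comm_other (by rintro rfl; exact hmT hjT) b b (hL j hjT)) (by
          have hlt : (Finset.univ.filter fun j => ¬ ∀ x, ctr σ m b b L * slotMat j x = slotMat j x * ctr σ m b b L).card <
              (Finset.univ.filter fun m => ¬ ∀ x, L * slotMat m x = slotMat m x * L).card := by
            apply Finset.card_lt_card
            rw [Finset.ssubset_iff_of_subset]
            · refine ⟨m, by simpa using ⟨x, hx⟩, ?_⟩
              rw [Finset.mem_filter]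
              push Not
              exact fun _ => ctr_comm m b b L
            · intro j hj
              rw [Finset.mem_filter] at hj ⊢
              refine ⟨hj.1, fun hjL => hj.2 ?_⟩
              by_cases hmj : m = j
              · subst hmj
                exact ctr_comm m b b L
              · exact ctr_comm_other hmj b b hjL
          omega) h1
      exact ⟨T', v', c, (Finset.subset_insert _ _).trans hT, hc, hv', hg⟩

theorem pureS_of_one (hσ : σ ≠ RingHom.id F) (hσ2 : ∀ x : F, σ (σ x) = x) (hk : 3 ≤ k) (hM : OverT σ M)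
    {S : Finset (Fin (s + 1))} {c : F} (hc : c ≠ 0) {v : Fin (s + 1) → Fin k → F}
    (hv : ∀ j ∈ S, v j ≠ 0 ∧ stB σ k (v j) (v j) = 0)
    (h : ∃ g ∈ M, (g : Matrix (Fin (s + 1) → Fin k) (Fin (s + 1) → Fin k) F) = 1 + c • pS σ S v) : PureS σ M S := by
  refine ⟨c, hc, fun v' hv' => ?_⟩
  have key : ∀ U : Finset (Fin (s + 1)), ∃ g ∈ M, (g : Matrix (Fin (s + 1) → Fin k) (Fin (s + 1) → Fin k) F) =
      1 + c • pS σ S (fun j => if j ∈ U then v' j else v j) := by
    intro U
    induction U using Finset.induction_on with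
    | empty => simpa using h
    | insert m U hmU ih =>
      obtain ⟨g, hg, hgc⟩ := ih
      by_cases hmS : m ∈ S
      · obtain ⟨z, hz, hzd, hzv⟩ := exists_su hσ hσ2 hk (hv m hmS).1 (hv' m hmS).1 (by rw [(hv m hmS).2, (hv' m hmS).2])
        obtain ⟨A, A', a, ha, haA, haA', hA, hA', hAA', _⟩ := exists_slot hM m hz hzd
        refine ⟨a * g * a⁻¹, M.mul_mem (M.mul_mem ha hg) (M.inv_mem ha), ?_⟩
        rw [Units.val_mul, Units.val_mul, haA, haA', hgc, mul_add, add_mul, mul_one, ← slotMat_mul, hAA', slotMat_one,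
          Matrix.mul_smul, Matrix.smul_mul]
        congr 2
        unfold pS
        rw [slot_mul_pureMat, pureMat_mul_slot]
        congr 1
        funext j
        by_cases hj : j = m
        · subst hj
          simp only [Function.update_self, if_pos hmS, if_neg hmU, if_pos (Finset.mem_insert_self j U)]
          rw [hA, hA', hzv]
        · simp only [Function.update_of_ne hj]
          by_cases hjU : j ∈ U
          · simp only [if_pos hjU, if_pos (Finset.mem_insert_of_mem hjU)]
          · have hjU' : j ∉ insert m U := by rw [Finset.mem_insert]; tauto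
            simp only [if_neg hjU, if_neg hjU']
      · refine ⟨g, hg, ?_⟩
        rw [hgc, pS_congr (v' := fun j => if j ∈ insert m U then v' j else v j)]
        intro j hj
        have hjm : j ≠ m := by rintro rfl; exact hmS hj
        by_cases hjU : j ∈ U
        · simp only [if_pos hjU, if_pos (Finset.mem_insert_of_mem hjU)]
        · have hjU' : j ∉ insert m U := by rw [Finset.mem_insert]; tauto
          simp only [if_neg hjU, if_neg hjU']
  obtain ⟨g, hg, hgc⟩ := key S
  refine ⟨g, hg, ?_⟩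
  rw [hgc, pS_congr (v' := v')]
  · rfl
  · intro j hj
    rw [if_pos hj]

/-- **Part A, first half.** -/
theorem partA_first (hσ : σ ≠ RingHom.id F) (hσ2 : ∀ x : F, σ (σ x) = x) (hk : 3 ≤ k)
    (hqk : 4 ≤ k ∨ ∃ c : F, c ≠ 0 ∧ σ c * c ≠ 1) (hM : OverT σ M) :
    LayerT σ M ∨ ∃ S : Finset (Fin (s + 1)), 2 ≤ S.card ∧ PureS σ M S := by
  by_cases hL : LayerT σ M
  · exact Or.inl hL
  right
  unfold LayerT at hL
  push Not at hL
  obtain ⟨i, w, hw0, hw, K, hK, hgK, hKs⟩ := hL
  have hw' : stB σ k w w = 0 := hw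
  have hK0 : K ≠ 0 := by
    rintro rfl
    exact hKs 0 (zero_smul _ _).symm
  obtain ⟨m, hm⟩ : ∃ m, ¬ ∀ x, K * slotMat m x = slotMat m x * K := by
    by_contra hcon
    push Not at hcon
    obtain ⟨c, hc⟩ := scalar_of_commute_slots (M := K) hcon
    exact hKs c hc
  have hmi : m ≠ i := by
    rintro rfl
    exact hm hK
  have hv : ∀ j ∈ ({i} : Finset (Fin (s + 1))), (fun _ => w : Fin (s + 1) → Fin k → F) j ≠ 0 ∧
      stB σ k ((fun _ => w : Fin (s + 1) → Fin k → F) j) ((fun _ => w : Fin (s + 1) → Fin k → F) j) = 0 :=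
    fun _ _ => ⟨hw0, hw'⟩
  obtain ⟨b, hb0, hb, hbL⟩ := exists_ctr_ne hσ hσ2 hm
  have h1 := pS_step (i := i) (m := m) (T := {i}) hσ hσ2 hk hqk hM (Finset.mem_singleton_self i)
    (by rwa [Finset.mem_singleton]) hv (L := K) (by
      intro j hj
      rw [Finset.mem_singleton] at hj
      subst hj
      exact hK) (by
      obtain ⟨g, hg, hgK'⟩ := hgK
      refine ⟨g, hg, ?_⟩
      rw [hgK']
      have e1 : pS σ {i} (fun _ => w) = (slotMat i (ee σ w w) : Matrix (Fin (s + 1) → Fin k) (Fin (s + 1) → Fin k) F) := by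
        unfold pS slotMat
        congr 1
        funext j
        by_cases hj : j = i
        · subst hj
          rw [Function.update_self, if_pos (Finset.mem_singleton_self _)]
        · rw [Function.update_of_ne hj, if_neg (by rwa [Finset.mem_singleton])]
      rw [e1, ← hK]
      rfl) hb0 hb hb0 hb
  obtain ⟨T', v', c, hT, hc, hv', hg⟩ := pS_process hσ hσ2 hk hqk hM (i := i) _ (insert m {i})
    (Function.update (fun _ => w) m b) (ctr σ m b b K) (by simp) (by
      intro j hj
      rcases Finset.mem_insert.mp hj with rfl | hjT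
      · rw [Function.update_self]
        exact ⟨hb0, hb⟩
      · rw [Finset.mem_singleton] at hjT
        subst hjT
        rw [Function.update_of_ne (Ne.symm hmi)]
        exact ⟨hw0, hw'⟩) hbL (by
      intro j hj
      rcases Finset.mem_insert.mp hj with rfl | hjT
      · exact ctr_comm _ b b K
      · rw [Finset.mem_singleton] at hjT
        subst hjT
        exact ctr_comm_other hmi b b hK) le_rfl h1
  refine ⟨T', ?_, pureS_of_one hσ hσ2 hk hM hc hv' hg⟩
  calc 2 = (insert m {i} : Finset (Fin (s + 1))).card := by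
        rw [Finset.card_insert_of_notMem (by rwa [Finset.mem_singleton]), Finset.card_singleton]
    _ ≤ T'.card := Finset.card_le_card hT

end Process

end Cfsg.Agent.H881
end

-- part: H881/PA5
section
/-!
Part A: from `PureS` over all slots to `PureT`.
-/

set_option autoImplicit false
set_option linter.unusedSectionVars false

namespace Cfsg.Agent.H881

open Module Matrix Cfsg.Agent.ClassicalGeometry Cfsg.Agent.H880 Cfsg.Agent.H919

section

variable {F : Type*} [Field F] [Finite F] {σ : F →+* F} {k s : ℕ}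
  {M : Subgroup (Matrix.GeneralLinearGroup (Fin (s + 1) → Fin k) F)}

theorem pureMat_ee (u v : Fin (s + 1) → Fin k → F) :
    pureMat (fun j => ee σ (u j) (v j)) = vecMulVec (pvec u) (σ ∘ pvec v) := by
  ext f g
  rw [pureMat_apply, vecMulVec_apply]
  simp only [ee, vecMulVec_apply, Function.comp_apply, pvec, map_prod, Finset.prod_mul_distrib]

theorem pvec_form (u v : Fin (s + 1) → Fin k → F) :
    (⇑σ ∘ pvec u) ⬝ᵥ pvec v = ∏ j, stB σ k (u j) (v j) := by
  simp only [stB_apply]
  rw [Finset.prod_univ_sum, Fintype.piFinset_univ]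
  refine Finset.sum_congr rfl fun f _ => ?_
  simp only [Function.comp_apply, pvec, map_prod, Finset.prod_mul_distrib]

/-- Coefficients of unitary transvections are skew. -/
theorem skew_of_unit {ι : Type*} [Fintype ι] [DecidableEq ι] (hσ2 : ∀ x : F, σ (σ x) = x) {w : ι → F} (hw0 : w ≠ 0)
    (hw : (⇑σ ∘ w) ⬝ᵥ w = 0) {c : F}
    (h : ((1 + c • vecMulVec w (σ ∘ w) : Matrix ι ι F).map σ)ᵀ * (1 + c • vecMulVec w (σ ∘ w)) = 1) : c + σ c = 0 := by
  have h1 : ((1 + c • vecMulVec w (σ ∘ w) : Matrix ι ι F).map σ)ᵀ = 1 + σ c • vecMulVec w (σ ∘ w) := by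
    ext a b
    rw [Matrix.transpose_apply, Matrix.map_apply, Matrix.add_apply, Matrix.add_apply, map_add, Matrix.smul_apply,
      Matrix.smul_apply, vecMulVec_apply, vecMulVec_apply, smul_eq_mul, smul_eq_mul, map_mul, map_mul,
      Function.comp_apply, Function.comp_apply, hσ2, Matrix.one_apply, Matrix.one_apply]
    by_cases hab : a = b
    · subst hab
      rw [if_pos rfl, map_one]
      ring
    · rw [if_neg hab, if_neg (Ne.symm hab), map_zero]
      ring
  have h2 : vecMulVec w (σ ∘ w) * vecMulVec w (σ ∘ w) = 0 := by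
    rw [Matrix.vecMulVec_mul_vecMulVec, hw, zero_smul]
    exact Matrix.vecMulVec_zero _
  rw [h1, add_mul, mul_add, mul_add, one_mul, mul_one, one_mul, Matrix.smul_mul, Matrix.mul_smul, h2, smul_zero,
    smul_zero, add_zero, add_assoc, ← add_smul] at h
  have h3 : (c + σ c) • vecMulVec w (σ ∘ w) = 0 := by
    have := congrArg (fun X => X - 1) h
    simpa using this
  obtain ⟨f, hf⟩ : ∃ f, w f ≠ 0 := by
    by_contra hcon
    push Not at hcon
    exact hw0 (funext hcon)
  have h4 := congrFun (congrFun h3 f) f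
  rw [Matrix.smul_apply, vecMulVec_apply, Function.comp_apply, smul_eq_mul] at h4
  rcases mul_eq_zero.mp h4 with h5 | h5
  · exact h5
  · exact absurd h5 (mul_ne_zero hf ((map_ne_zero σ).mpr hf))

theorem pvec_ne_zero {u : Fin (s + 1) → Fin k → F} (h : ∀ j, u j ≠ 0) : pvec u ≠ 0 := by
  have h1 : ∀ j, ∃ c, u j c ≠ 0 := by
    intro j
    by_contra hcon
    push Not at hcon
    exact h j (funext hcon)
  choose f hf using h1
  intro h2
  have h3 := congrFun h2 f
  exact Finset.prod_ne_zero_iff.mpr (fun j _ => hf j) h3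

theorem pvec_eq_zero {u : Fin (s + 1) → Fin k → F} {j : Fin (s + 1)} (h : u j = 0) : pvec u = 0 := by
  funext f
  exact Finset.prod_eq_zero (Finset.mem_univ j) (by rw [h]; rfl)

/-- **Part A, last step.** -/
theorem pureT_of_univ (hσ : σ ≠ RingHom.id F) (hσ2 : ∀ x : F, σ (σ x) = x) (hM : OverT σ M)
    (h : PureS σ M Finset.univ) : PureT σ M := by
  intro u hu l hl
  by_cases hu0 : ∃ j, u j = 0
  · obtain ⟨j, hj⟩ := hu0
    refine ⟨1, M.one_mem, ?_⟩
    rw [pvec_eq_zero hj, Matrix.zero_vecMulVec, smul_zero, add_zero, Units.val_one]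
  push Not at hu0
  by_cases hl0 : l = 0
  · refine ⟨1, M.one_mem, ?_⟩
    rw [hl0, zero_smul, add_zero, Units.val_one]
  obtain ⟨c, hc, h1⟩ := h
  have h2 : ∀ v : Fin (s + 1) → Fin k → F, (∀ j, v j ≠ 0 ∧ stB σ k (v j) (v j) = 0) → ∃ g ∈ M,
      (g : Matrix (Fin (s + 1) → Fin k) (Fin (s + 1) → Fin k) F) = 1 + c • vecMulVec (pvec v) (σ ∘ pvec v) := by
    intro v hv
    obtain ⟨g, hg, hgv⟩ := h1 v (fun j _ => hv j)
    refine ⟨g, hg, ?_⟩
    rw [hgv, ← pureMat_ee]
    simp
  have hu' : ∀ j, stB σ k (u j) (u j) = 0 := hu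
  obtain ⟨g, hg, hgu⟩ := h2 u (fun j => ⟨hu0 j, hu' j⟩)
  have hcs : c + σ c = 0 := by
    refine skew_of_unit hσ2 (pvec_ne_zero hu0) ?_ (hgu ▸ hM.iso g hg)
    rw [pvec_form]
    exact Finset.prod_eq_zero (Finset.mem_univ 0) (hu' 0)
  have hρ : σ (l / c) = l / c := by
    rw [map_div₀]
    have e1 : σ l = -l := by linear_combination hl
    have e2 : σ c = -c := by linear_combination hcs
    rw [e1, e2, neg_div_neg_eq]
  obtain ⟨r, hr0, hr⟩ := HermWitt.norm_surj σ hσ hσ2 (l / c) hρ (div_ne_zero hl0 hc)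
  obtain ⟨g', hg', hgu'⟩ := h2 (Function.update u 0 (r • u 0)) (by
    intro j
    by_cases hj : j = 0
    · subst hj
      rw [Function.update_self]
      refine ⟨smul_ne_zero hr0 (hu0 0), ?_⟩
      rw [LinearMap.map_smulₛₗ₂, map_smul, hu' 0, smul_zero, smul_zero]
    · rw [Function.update_of_ne hj]
      exact ⟨hu0 j, hu' j⟩)
  refine ⟨g', hg', ?_⟩
  rw [hgu']
  congr 1
  have e3 : pvec (Function.update u 0 (r • u 0)) = r • pvec u := by
    funext f
    rw [Pi.smul_apply, smul_eq_mul]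
    unfold pvec
    rw [← Finset.mul_prod_erase _ _ (Finset.mem_univ (0 : Fin (s + 1))),
      ← Finset.mul_prod_erase _ (fun i => u i (f i)) (Finset.mem_univ (0 : Fin (s + 1))), Function.update_self,
      Pi.smul_apply, smul_eq_mul, mul_assoc]
    congr 2
    refine Finset.prod_congr rfl fun j hj => ?_
    rw [Function.update_of_ne (Finset.ne_of_mem_erase hj)]
  have e4 : (σ ∘ (r • pvec u) : (Fin (s + 1) → Fin k) → F) = σ r • (σ ∘ pvec u) := by
    funext f
    simp
  rw [e3, e4, Matrix.smul_vecMulVec, Matrix.vecMulVec_smul, smul_smul, smul_smul]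
  congr 1
  have : r * σ r = l / c := by rw [← hr]
  rw [mul_assoc, this, mul_div_cancel₀ _ hc]

end

end Cfsg.Agent.H881
end

-- part: H594/TensGenD
section
/-!
All isotropic vectors from the tensors `u ⊗ w`, `u` isotropic (helper594; after `H880.UGen`).
-/

set_option autoImplicit false
set_option linter.unusedSectionVars false

namespace Cfsg.Agent.H594.TensGen

open Module Cfsg.Agent.ClassicalGeometry Matrix Cfsg.Agent.H880

variable {F : Type*} [Field F] {σ : F →+* F} [Finite F] {V : Type*} [AddCommGroup V] [Module F V]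
  {B : V →ₛₗ[σ] V →ₗ[F] F} {M : Subgroup (V ≃ₗ[F] V)} {E : Type*} [AddCommGroup E] [Module F E]
  [FiniteDimensional F E] {a : ℕ}

theorem bF_add_left (b : E →ₛₗ[σ] E →ₗ[F] F) (X Y Z : Fin a → E) : bF b (X + Y) Z = bF b X Z + bF b Y Z := by
  unfold bF
  rw [← Finset.sum_add_distrib]
  refine Finset.sum_congr rfl fun j _ => ?_
  rw [Pi.add_apply, map_add, LinearMap.add_apply]

theorem bF_add_right (b : E →ₛₗ[σ] E →ₗ[F] F) (X Y Z : Fin a → E) : bF b X (Y + Z) = bF b X Y + bF b X Z := by
  unfold bF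
  rw [← Finset.sum_add_distrib]
  refine Finset.sum_congr rfl fun j _ => ?_
  rw [Pi.add_apply, map_add]

theorem bF_pure (b : E →ₛₗ[σ] E →ₗ[F] F) (u u' : Fin a → F) (w w' : E) :
    bF b (tp u w) (tp u' w') = stB σ a u u' * b w w' := by
  rw [bF_tp_left, cn_tp, map_smul, smul_eq_mul]

/-- All isotropic vectors of `⟨u, u'⟩ ⊗ W` are centres, `(u, u')` a hyperbolic pair. -/
theorem gen_two (hσ : σ ≠ RingHom.id F) (hσ2 : ∀ x : F, σ (σ x) = x) (hS : B.IsSymm)
    (hM : ∀ g ∈ M, ∀ x y, B (g x) (g y) = B x y) {b : E →ₛₗ[σ] E →ₗ[F] F} (hSb : b.IsSymm) (hB : b.SeparatingLeft)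
    {Φ : (Fin a → E) →ₗ[F] V} (hΦ : ∀ X Y, B (Φ X) (Φ Y) = bF b X Y)
    (h0 : ∀ u w, stB σ a u u = 0 → HasT B M (Φ (tp u w)))
    {u u' : Fin a → F} (hu : stB σ a u u = 0) (hu' : stB σ a u' u' = 0) (huu' : stB σ a u u' = 1)
    (w w' : E) (hww : b w w' + b w' w = 0) :
    HasT B M (Φ (tp u w + tp u' w')) := by
  have hSa := stB_symm hσ2 a
  have hu'u : stB σ a u' u = 1 := by rw [← hSa.eq, huu', map_one]
  have hval : ∀ x x' y y' : E, B (Φ (tp u x + tp u' x')) (Φ (tp u y + tp u' y'))
      = b x y' + b x' y := by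
    intro x x' y y'
    rw [hΦ]
    simp only [bF_add_left, bF_add_right, bF_pure, hu, hu', huu', hu'u]
    ring
  have hsum : ∀ x x', b x x' ≠ 0 → b x x' + b x' x = 0 →
      HasT B M (Φ (tp u x + tp u' x')) := by
    intro x x' hne hxx'
    rw [map_add]
    refine HasT.add hS hM (h0 u x hu) (h0 u' x' hu') ?_ ?_
    · rw [hΦ, bF_pure, hu'u, one_mul]
      intro h
      exact hne (symm_zero hSb h)
    · rw [← map_add, hval]; exact hxx'
  by_cases hw0 : w = 0
  · subst hw0
    rw [tp_zero_right, zero_add]; exact h0 u' w' hu'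
  by_cases hne : b w w' = 0
  · have hne' := symm_zero hSb hne
    obtain ⟨z, hz⟩ : ∃ z, b w z ≠ 0 := by
      by_contra h
      push Not at h
      exact hw0 (hB w h)
    obtain ⟨l, hl0, hl⟩ := exists_skew hσ hσ2
    have hσl : σ l = -l := by linear_combination hl
    obtain ⟨w₁, hw₁⟩ : ∃ w₁, b w w₁ = l :=
      ⟨(l / b w z) • z, by rw [map_smul, smul_eq_mul, div_mul_cancel₀ _ hz]⟩
    have hw₁' : b w₁ w = -l := by rw [← hSb.eq, hw₁, hσl]
    have h1 := hsum w w₁ (by rw [hw₁]; exact hl0) (by rw [hw₁, hw₁']; ring)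
    have h2 := h0 u' (w' - w₁) hu'
    have e : Φ (tp u w + tp u' w₁) + Φ (tp u' (w' - w₁)) = Φ (tp u w + tp u' w') := by
      rw [← map_add, tp_sub_right]
      congr 1
      abel
    have h3 := HasT.add hS hM h1 h2 (by
      have e2 : tp u' (w' - w₁) = tp u 0 + tp u' (w' - w₁) := by
        rw [tp_zero_right, zero_add]
      rw [e2, hval, map_zero, LinearMap.zero_apply, zero_add, map_sub, LinearMap.sub_apply, hne', hw₁']
      intro h
      exact hl0 (by linear_combination h)) (by
      rw [e, hval]; exact hww)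
    rw [e] at h3
    exact h3
  · exact hsum w w' hne hww

/-- All isotropic vectors supported on two rows are centres. -/
theorem gen_rows_two (hσ : σ ≠ RingHom.id F) (hσ2 : ∀ x : F, σ (σ x) = x) (hS : B.IsSymm)
    (hM : ∀ g ∈ M, ∀ x y, B (g x) (g y) = B x y) {b : E →ₛₗ[σ] E →ₗ[F] F} (hSb : b.IsSymm) (hB : b.SeparatingLeft)
    {Φ : (Fin a → E) →ₗ[F] V} (hΦ : ∀ X Y, B (Φ X) (Φ Y) = bF b X Y)
    (h0 : ∀ u w, stB σ a u u = 0 → HasT B M (Φ (tp u w)))
    {i j : Fin a} (hij : i ≠ j) (x x' : E)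
    (hxx : b x x + b x' x' = 0) :
    HasT B M (Φ (tp (Pi.single i (1 : F)) x + tp (Pi.single j (1 : F)) x')) := by
  obtain ⟨c, ζ, hc, hζ, hζ1⟩ := exists_norm_neg_one hσ hσ2
  have hc0 : c ≠ 0 := by
    rintro rfl
    rw [mul_zero] at hc
    exact one_ne_zero (neg_eq_zero.mp hc.symm)
  have hii : stB σ a (Pi.single i 1) (Pi.single i 1) = 1 := by rw [stB_single_left, Pi.single_eq_same]
  have hjj : stB σ a (Pi.single j 1) (Pi.single j 1) = 1 := by rw [stB_single_left, Pi.single_eq_same]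
  have eij : stB σ a (Pi.single i 1) (Pi.single j 1) = 0 := by
    rw [stB_single_left, Pi.single_eq_of_ne hij]
  have eji : stB σ a (Pi.single j 1) (Pi.single i 1) = 0 := by
    rw [stB_single_left, Pi.single_eq_of_ne (Ne.symm hij)]
  have h1ζ : 1 - ζ ≠ 0 := fun h => hζ1 (by linear_combination -h)
  set α := (1 - ζ)⁻¹ with hα
  set u : Fin a → F := Pi.single i 1 + c • Pi.single j 1 with hu_def
  set u' : Fin a → F := α • (Pi.single i 1 + (c * ζ) • Pi.single j 1) with hu'_def
  have hu : stB σ a u u = 0 := by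
    rw [hu_def]
    simp only [map_add, LinearMap.add_apply, LinearMap.map_smulₛₗ₂, map_smul, smul_eq_mul, hii, hjj, eij, eji]
    linear_combination hc
  have hu' : stB σ a u' u' = 0 := by
    rw [hu'_def]
    simp only [map_add, LinearMap.add_apply, LinearMap.map_smulₛₗ₂, map_smul, smul_eq_mul, hii, hjj, eij, eji, map_mul]
    have h1 : σ c * σ ζ * (c * ζ) = -1 := by
      have : σ c * σ ζ * (c * ζ) = (σ c * c) * (σ ζ * ζ) := by ring
      rw [this, hc, hζ, mul_one]
    linear_combination (α * σ α) * h1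
  have huu' : stB σ a u u' = 1 := by
    rw [hu_def, hu'_def]
    simp only [map_add, LinearMap.add_apply, LinearMap.map_smulₛₗ₂, map_smul, smul_eq_mul, hii, hjj, eij, eji]
    have h1 : α * (1 - ζ) = 1 := inv_mul_cancel₀ h1ζ
    linear_combination h1 + α * ζ * hc
  -- coordinates
  set w' := (1 / (c * (ζ - 1) * α)) • (x' - c • x) with hw'
  set w := x - α • w' with hw
  have hden : c * (ζ - 1) * α ≠ 0 :=
    mul_ne_zero (mul_ne_zero hc0 (fun h => hζ1 (by linear_combination h))) (inv_ne_zero h1ζ)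
  have e : tp u w + tp u' w' = tp (Pi.single i (1 : F)) x + tp (Pi.single j (1 : F)) x' := by
    rw [hu_def, hu'_def]
    have e1 : w + α • w' = x := by rw [hw]; abel
    have e2 : c • w + (α * (c * ζ)) • w' = x' := by
      rw [hw, smul_sub, smul_smul]
      have h3 : (c * (ζ - 1) * α) • w' = x' - c • x := by
        rw [hw', smul_smul, mul_one_div, div_self hden, one_smul]
      have h4 : (α * (c * ζ)) = c * (ζ - 1) * α + c * α := by ring
      rw [h4, add_smul, h3]
      abel
    rw [← e1, ← e2]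
    simp only [tp_add_left, tp_smul_left, tp_add_right, tp_smul_right, smul_smul,
      smul_add]
    rw [← add_assoc, ← add_assoc]
    congr 1
    abel
  rw [← e]
  apply gen_two hσ hσ2 hS hM hSb hB hΦ h0 hu hu' huu'
  have h5 : bF b (tp (Pi.single i (1 : F)) x + tp (Pi.single j (1 : F)) x')
      (tp (Pi.single i (1 : F)) x + tp (Pi.single j (1 : F)) x') = 0 := by
    simp only [bF_add_left, bF_add_right, bF_pure, hii, hjj, eij, eji]
    linear_combination hxx
  have hu'u : stB σ a u' u = 1 := by rw [← (stB_symm hσ2 a).eq, huu', map_one]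
  rw [← e] at h5
  simp only [bF_add_left, bF_add_right, bF_pure, hu, hu', huu', hu'u] at h5
  linear_combination h5

/-- **Lemma D.** All isotropic vectors are centres. -/
theorem gen_all (hσ : σ ≠ RingHom.id F) (hσ2 : ∀ x : F, σ (σ x) = x) (hS : B.IsSymm)
    (hM : ∀ g ∈ M, ∀ x y, B (g x) (g y) = B x y) {b : E →ₛₗ[σ] E →ₗ[F] F} (hSb : b.IsSymm) (hB : b.SeparatingLeft)
    {Φ : (Fin a → E) →ₗ[F] V} (hΦ : ∀ X Y, B (Φ X) (Φ Y) = bF b X Y)
    (h0 : ∀ u w, stB σ a u u = 0 → HasT B M (Φ (tp u w))) (ha : 2 ≤ a) (hE : 3 ≤ finrank F E)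
    (X : Fin a → E) (hX : bF b X X = 0) : HasT B M (Φ X) := by
  classical
  -- induction on the number of non-zero rows
  induction hN : (Finset.univ.filter fun i => X i ≠ 0).card using Nat.strong_induction_on generalizing X with
  | _ N ih =>
    by_cases hN2 : N ≤ 2
    · -- at most two rows
      obtain ⟨S, hS', hSc⟩ := Finset.exists_superset_card_eq (s := Finset.univ.filter fun i => X i ≠ 0) (n := 2)
        (by omega) (by simpa using ha)
      obtain ⟨i, j, hij, rfl⟩ := Finset.card_eq_two.mp hSc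
      have hz : ∀ k, k ≠ i → k ≠ j → X k = 0 := by
        intro k hki hkj
        by_contra h
        have := hS' (Finset.mem_filter.mpr ⟨Finset.mem_univ k, h⟩)
        rw [Finset.mem_insert, Finset.mem_singleton] at this
        rcases this with h | h
        · exact hki h
        · exact hkj h
      have e : X = tp (Pi.single i (1 : F)) (X i) + tp (Pi.single j (1 : F)) (X j) := by
        funext k
        show X k = (Pi.single i (1 : F) : Fin a → F) k • X i + (Pi.single j (1 : F) : Fin a → F) k • X j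
        by_cases hki : k = i
        · subst hki
          rw [Pi.single_eq_same, Pi.single_eq_of_ne hij, one_smul, zero_smul, add_zero]
        · by_cases hkj : k = j
          · subst hkj
            rw [Pi.single_eq_same, Pi.single_eq_of_ne hki, one_smul, zero_smul, zero_add]
          · rw [hz k hki hkj, Pi.single_eq_of_ne hki, Pi.single_eq_of_ne hkj, zero_smul, zero_smul, add_zero]
      rw [e]
      apply gen_rows_two hσ hσ2 hS hM hSb hB hΦ h0 hij
      unfold bF at hX
      rw [← Finset.sum_subset (Finset.subset_univ {i, j})] at hX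
      · rw [Finset.sum_pair hij] at hX
        exact hX
      · intro k _ hk
        rw [Finset.mem_insert, Finset.mem_singleton, not_or] at hk
        rw [hz k hk.1 hk.2, map_zero]
    · -- at least three rows
      obtain ⟨k, hk, j, hj, hkj⟩ := Finset.one_lt_card.mp (show 1 < (Finset.univ.filter fun i => X i ≠ 0).card by omega)
      have hk0 : X k ≠ 0 := (Finset.mem_filter.mp hk).2
      have hj0 : X j ≠ 0 := (Finset.mem_filter.mp hj).2
      set s := ∑ i ∈ (Finset.univ.erase k).erase j, b (X i) (X i) with hs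
      have hσs : σ s = s := by
        rw [hs, map_sum]
        exact Finset.sum_congr rfl fun i _ => hSb.eq _ _
      obtain ⟨l, hl0, hl⟩ := exists_skew hσ hσ2
      have hσl : σ l = -l := by linear_combination hl
      obtain ⟨x, hx1, hx2⟩ := exists_vec (B := b) hσ hσ2 hSb hB hE
        hk0 (l - s) (-s) (by rw [map_neg, hσs])
      have hx1' : b x (X k) = -l - s := by rw [← hSb.eq, hx1, map_sub, hσl, hσs]
      have hsplit : ∀ f : Fin a → F, ∑ i, f i = f k + (f j + ∑ i ∈ (Finset.univ.erase k).erase j, f i) := by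
        intro f
        rw [← Finset.add_sum_erase _ f (Finset.mem_univ k),
          ← Finset.add_sum_erase (Finset.univ.erase k) f (Finset.mem_erase.mpr ⟨Ne.symm hkj, Finset.mem_univ j⟩)]
      have hXs : b (X k) (X k) + (b (X j) (X j) + s) = 0 := by
        rw [← hX]
        unfold bF
        rw [hsplit]
      let X' : Fin a → E := fun i => if i = k then x else if i = j then 0 else X i
      let X'' : Fin a → E := fun i => if i = k then X k - x else if i = j then X j else 0
      have e : X' + X'' = X := by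
        funext i
        show X' i + X'' i = X i
        by_cases hik : i = k
        · subst hik
          simp only [X', X'', if_true, add_sub_cancel]
        · by_cases hij : i = j
          · subst hij
            simp only [X', X'', if_neg hik, if_true, zero_add]
          · simp only [X', X'', if_neg hik, if_neg hij, add_zero]
      have eX'k : X' k = x := if_pos rfl
      have eX'j : X' j = 0 := by simp only [X', if_neg (Ne.symm hkj), if_true]
      have eX''k : X'' k = X k - x := if_pos rfl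
      have eX''j : X'' j = X j := by simp only [X'', if_neg (Ne.symm hkj), if_true]
      have hmem : ∀ i ∈ (Finset.univ.erase k).erase j, i ≠ j ∧ i ≠ k := by
        intro i hi
        rw [Finset.mem_erase, Finset.mem_erase] at hi
        exact ⟨hi.1, hi.2.1⟩
      have eX'i : ∀ i ∈ (Finset.univ.erase k).erase j, X' i = X i := by
        intro i hi
        obtain ⟨h1, h2⟩ := hmem i hi
        simp only [X', if_neg h1, if_neg h2]
      have eX''i : ∀ i ∈ (Finset.univ.erase k).erase j, X'' i = 0 := by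
        intro i hi
        obtain ⟨h1, h2⟩ := hmem i hi
        simp only [X'', if_neg h1, if_neg h2]
      have hX'0 : bF b X' X' = 0 := by
        unfold bF
        rw [hsplit, eX'k, eX'j, Finset.sum_congr rfl fun i hi => by rw [eX'i i hi], map_zero, hx2, ← hs]
        ring
      have hX''0 : bF b X'' X'' = 0 := by
        unfold bF
        rw [hsplit, eX''k, eX''j, Finset.sum_congr rfl fun i hi => by rw [eX''i i hi, map_zero],
          Finset.sum_const_zero]
        simp only [map_sub, LinearMap.sub_apply, hx1, hx1', hx2]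
        linear_combination hXs
      have hX'' : B (Φ X'') (Φ X') ≠ 0 := by
        rw [hΦ]
        unfold bF
        rw [hsplit, eX''k, eX''j, eX'k, eX'j, Finset.sum_congr rfl fun i hi => by
          rw [eX''i i hi, map_zero, LinearMap.zero_apply], Finset.sum_const_zero]
        simp only [map_sub, LinearMap.sub_apply, hx1, hx2, map_zero]
        intro h
        exact hl0 (by linear_combination h)
      have c1 : (Finset.univ.filter fun i => X' i ≠ 0).card < N := by
        rw [← hN]
        apply Finset.card_lt_card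
        rw [Finset.ssubset_iff_of_subset]
        · refine ⟨j, hj, fun h => (Finset.mem_filter.mp h).2 eX'j⟩
        · intro i hi
          have hi0 := (Finset.mem_filter.mp hi).2
          refine Finset.mem_filter.mpr ⟨Finset.mem_univ i, fun h => ?_⟩
          by_cases hik : i = k
          · exact hk0 (hik ▸ h)
          · by_cases hij : i = j
            · exact hj0 (hij ▸ h)
            · apply hi0
              simp only [X', if_neg hik, if_neg hij, h]
      have c2 : (Finset.univ.filter fun i => X'' i ≠ 0).card < N := by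
        have h3 : (Finset.univ.filter fun i => X'' i ≠ 0).card ≤ ({k, j} : Finset (Fin a)).card := by
          apply Finset.card_le_card
          intro i hi
          have hi0 := (Finset.mem_filter.mp hi).2
          rw [Finset.mem_insert, Finset.mem_singleton]
          by_contra h
          rw [not_or] at h
          apply hi0
          simp only [X'', if_neg h.1, if_neg h.2]
        have h4 : ({k, j} : Finset (Fin a)).card ≤ 2 := Finset.card_le_two
        omega
      have r1 := ih _ c1 X' hX'0 (by congr)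
      have r2 := ih _ c2 X'' hX''0 (by congr)
      have r3 := HasT.add hS hM r1 r2 hX'' (by rw [← map_add, e, hΦ]; exact hX)
      rw [← map_add, e] at r3
      exact r3

end Cfsg.Agent.H594.TensGen
end

-- part: H594/TensGenL
section
/-!
The last slot: from isotropic vectors to all vectors by means of `SU_k` (helper594; after `H880.UGen`).
-/

set_option autoImplicit false
set_option linter.unusedSectionVars false

namespace Cfsg.Agent.H594.TensGen

open Module Cfsg.Agent.ClassicalGeometry Matrix Cfsg.Agent.H880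

variable {F : Type*} [Field F] {σ : F →+* F} [Finite F]

/-- A hyperbolic pair and an orthogonal unit vector. -/
theorem exists_pair_unit (hσ : σ ≠ RingHom.id F) (hσ2 : ∀ x : F, σ (σ x) = x) {k : ℕ} (hk : 3 ≤ k) :
    ∃ g h e : Fin k → F, stB σ k g g = 0 ∧ stB σ k h h = 0 ∧ stB σ k g h = 1 ∧ stB σ k h g = 1 ∧
      stB σ k e e = 1 ∧ stB σ k g e = 0 ∧ stB σ k h e = 0 ∧ stB σ k e g = 0 ∧ stB σ k e h = 0 := by
  obtain ⟨c, ζ, hc, hζ, hζ1⟩ := exists_norm_neg_one hσ hσ2
  have hSa := stB_symm hσ2 k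
  let i : Fin k := ⟨0, by omega⟩
  let j : Fin k := ⟨1, by omega⟩
  let m : Fin k := ⟨2, by omega⟩
  have hij : i ≠ j := fun h => by simpa [i, j] using congrArg Fin.val h
  have him : i ≠ m := fun h => by simpa [i, m] using congrArg Fin.val h
  have hjm : j ≠ m := fun h => by simpa [j, m] using congrArg Fin.val h
  have hii : stB σ k (Pi.single i 1) (Pi.single i 1) = 1 := by rw [stB_single_left, Pi.single_eq_same]
  have hjj : stB σ k (Pi.single j 1) (Pi.single j 1) = 1 := by rw [stB_single_left, Pi.single_eq_same]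
  have hmm : stB σ k (Pi.single m 1) (Pi.single m 1) = 1 := by rw [stB_single_left, Pi.single_eq_same]
  have eij : stB σ k (Pi.single i 1) (Pi.single j 1) = 0 := by
    rw [stB_single_left, Pi.single_eq_of_ne hij]
  have eji : stB σ k (Pi.single j 1) (Pi.single i 1) = 0 := by
    rw [stB_single_left, Pi.single_eq_of_ne (Ne.symm hij)]
  have eim : stB σ k (Pi.single i 1) (Pi.single m 1) = 0 := by
    rw [stB_single_left, Pi.single_eq_of_ne him]
  have ejm : stB σ k (Pi.single j 1) (Pi.single m 1) = 0 := by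
    rw [stB_single_left, Pi.single_eq_of_ne hjm]
  have emi : stB σ k (Pi.single m 1) (Pi.single i 1) = 0 := by
    rw [stB_single_left, Pi.single_eq_of_ne (Ne.symm him)]
  have emj : stB σ k (Pi.single m 1) (Pi.single j 1) = 0 := by
    rw [stB_single_left, Pi.single_eq_of_ne (Ne.symm hjm)]
  have h1ζ : 1 - ζ ≠ 0 := fun h => hζ1 (by linear_combination -h)
  set α := (1 - ζ)⁻¹ with hα
  set u : Fin k → F := Pi.single i 1 + c • Pi.single j 1 with hu_def
  set u' : Fin k → F := α • (Pi.single i 1 + (c * ζ) • Pi.single j 1) with hu'_def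
  have hu : stB σ k u u = 0 := by
    rw [hu_def]
    simp only [map_add, LinearMap.add_apply, LinearMap.map_smulₛₗ₂, map_smul, smul_eq_mul, hii, hjj, eij, eji]
    linear_combination hc
  have hu' : stB σ k u' u' = 0 := by
    rw [hu'_def]
    simp only [map_add, LinearMap.add_apply, LinearMap.map_smulₛₗ₂, map_smul, smul_eq_mul, hii, hjj, eij, eji, map_mul]
    have h1 : σ c * σ ζ * (c * ζ) = -1 := by
      have : σ c * σ ζ * (c * ζ) = (σ c * c) * (σ ζ * ζ) := by ring
      rw [this, hc, hζ, mul_one]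
    linear_combination (α * σ α) * h1
  have huu' : stB σ k u u' = 1 := by
    rw [hu_def, hu'_def]
    simp only [map_add, LinearMap.add_apply, LinearMap.map_smulₛₗ₂, map_smul, smul_eq_mul, hii, hjj, eij, eji]
    have h1 : α * (1 - ζ) = 1 := inv_mul_cancel₀ h1ζ
    linear_combination h1 + α * ζ * hc
  refine ⟨u, u', Pi.single m 1, hu, hu', huu', by rw [← hSa.eq, huu', map_one], hmm, ?_, ?_, ?_, ?_⟩
  · rw [hu_def, map_add, LinearMap.add_apply, LinearMap.map_smulₛₗ₂, eim, ejm, smul_zero, add_zero]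
  · rw [hu'_def, LinearMap.map_smulₛₗ₂, map_add, LinearMap.add_apply, LinearMap.map_smulₛₗ₂, eim, ejm, smul_zero, add_zero,
      smul_zero]
  · rw [hu_def, map_add, map_smul, emi, emj, smul_zero, add_zero]
  · rw [hu'_def, map_smul, map_add, map_smul, emi, emj, smul_zero, add_zero, smul_zero]

variable {V : Type*} [AddCommGroup V] [Module F V]
  {B : V →ₛₗ[σ] V →ₗ[F] F} {M : Subgroup (V ≃ₗ[F] V)} {k : ℕ}

/-- The case `q ≥ 3`. -/
theorem slot_small (hσ : σ ≠ RingHom.id F) (hσ2 : ∀ x : F, σ (σ x) = x) (hS : B.IsSymm)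
    (hM : ∀ g ∈ M, ∀ x y, B (g x) (g y) = B x y) (hk : 3 ≤ k) (hq : ∃ c : F, c ≠ 0 ∧ σ c * c ≠ 1)
    {P P' : (Fin k → F) →ₗ[F] V} (pp : ∀ x y, B (P x) (P y) = 0) (qq : ∀ x y, B (P' x) (P' y) = 0)
    (pq : ∀ x y, B (P x) (P' y) = stB σ k x y)
    (h0 : ∀ v, stB σ k v v = 0 → HasT B M (P v) ∧ HasT B M (P' v))
    {w : Fin k → F} (hw : stB σ k w w ≠ 0) :
    ∃ v, v ≠ 0 ∧ stB σ k v v = stB σ k w w ∧ HasT B M (P v) := by
  have hSk := stB_symm hσ2 k
  obtain ⟨g, h, e, gg, hh, gh, hg, ee, ge, he, eg, eh⟩ := exists_pair_unit hσ hσ2 hk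
  obtain ⟨c, hc0, hc1⟩ := hq
  obtain ⟨l, hl0, hl⟩ := exists_skew hσ hσ2
  have hσl : σ l = -l := by linear_combination hl
  set N := stB σ k w w with hN
  have hNσ : σ N = N := hSk.eq _ _
  set ρ := σ c * c with hρ
  have hρ0 : ρ ≠ 0 := mul_ne_zero (by simpa using hc0) hc0
  have hρσ : σ ρ = ρ := by rw [hρ, map_mul, hσ2, mul_comm]
  have hρl : ρ * l ≠ 0 := mul_ne_zero hρ0 hl0
  obtain ⟨t, ht⟩ := HermWitt.trace_surj σ hσ hσ2 N hNσ
  obtain ⟨y, hy0, hy⟩ := HermWitt.norm_surj σ hσ hσ2 (ρ⁻¹ * N) (by rw [map_mul, map_inv₀, hρσ, hNσ])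
    (mul_ne_zero (inv_ne_zero hρ0) hw)
  set x := t / (ρ * l) with hx
  have hxt : x * (ρ * l) = t := div_mul_cancel₀ _ hρl
  have hσxt : σ x * (ρ * l) = -σ t := by
    have := congrArg σ hxt
    rw [map_mul, map_mul, hρσ, hσl] at this
    linear_combination -this
  -- the three vectors
  set Y₁ : Fin k → F := l • g + x • h + y • e with hY₁
  set Y₃ : Fin k → F := (ρ * l) • g with hY₃
  have n1 : stB σ k Y₁ Y₁ = 0 := by
    rw [hY₁]
    simp only [map_add, LinearMap.add_apply, LinearMap.map_smulₛₗ₂, map_smul, smul_eq_mul, gg, hh, gh, hg, ee, ge, he,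
      eg, eh, hσl]
    have e1 : ρ * (-l * x + σ x * l + y * σ y) = 0 := by
      rw [hy]
      have e2 : ρ * (ρ⁻¹ * N) = N := by rw [← mul_assoc, mul_inv_cancel₀ hρ0, one_mul]
      linear_combination -hxt + hσxt + e2 - ht
    have e3 := (mul_eq_zero.1 e1).resolve_left hρ0
    linear_combination e3
  have n3 : stB σ k Y₃ Y₃ = 0 := by
    rw [hY₃, LinearMap.map_smulₛₗ₂, map_smul, gg, smul_zero, smul_zero]
  have a1 : stB σ k h Y₁ = l := by
    rw [hY₁]
    simp only [map_add, map_smul, smul_eq_mul, hh, hg, he]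
    ring
  have a3 : stB σ k h Y₃ = ρ * l := by
    rw [hY₃, map_smul, hg, smul_eq_mul, mul_one]
  have b1 : stB σ k Y₁ h = -l := by rw [← hSk.eq, a1, hσl]
  have b3 : stB σ k Y₃ h = -(ρ * l) := by rw [← hSk.eq, a3, map_mul, hρσ, hσl, mul_neg]
  have qp : ∀ x y, B (P' x) (P y) = stB σ k x y := fun x y => by rw [← hS.eq, pq, hSk.eq]
  have hsum : ∀ Y, stB σ k Y Y = 0 → stB σ k h Y ≠ 0 → stB σ k Y h + stB σ k h Y = 0 → HasT B M (P Y + P' h) := by
    intro Y hY hne hY2
    refine HasT.add hS hM (h0 Y hY).1 (h0 h hh).2 (by rw [qp]; exact hne) ?_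
    simp only [map_add, LinearMap.add_apply, pp, qq, pq, qp]
    linear_combination hY2
  have t1 := hsum Y₁ n1 (by rw [a1]; exact hl0) (by rw [a1, b1]; ring)
  have t3 := hsum Y₃ n3 (by rw [a3]; exact hρl) (by rw [a3, b3]; ring)
  have e0 : P Y₁ + P' h + (-1 : F) • (P Y₃ + P' h) = P (Y₁ - Y₃) := by
    rw [map_sub]; module
  have hB : B (P Y₃ + P' h) (P Y₁ + P' h) = l - ρ * l := by
    simp only [map_add, LinearMap.add_apply, pp, qq, pq, qp, a1, b3]
    ring
  have t4 := HasT.add hS hM t1 (t3.smul hσ2 (-1)) (by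
    rw [LinearMap.map_smulₛₗ₂, hB, map_neg, map_one, smul_eq_mul]
    intro h5
    apply hc1
    have h6 : (ρ - 1) * l = 0 := by linear_combination h5
    exact sub_eq_zero.1 ((mul_eq_zero.1 h6).resolve_right hl0)) (by rw [e0]; exact pp _ _)
  rw [e0] at t4
  have hnorm : stB σ k (Y₁ - Y₃) (Y₁ - Y₃) = N := by
    have e5 : stB σ k Y₁ Y₃ = -(ρ * l) * -(σ x) := by
      rw [hY₁, hY₃]
      simp only [map_add, LinearMap.add_apply, LinearMap.map_smulₛₗ₂, map_smul, smul_eq_mul, gg, hg, eg]
      ring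
    have e6 : stB σ k Y₃ Y₁ = -(ρ * l) * x := by
      rw [hY₁, hY₃]
      simp only [map_add, LinearMap.map_smulₛₗ₂, map_smul, smul_eq_mul, gg, gh, ge, map_mul, hρσ, hσl]
      ring
    simp only [map_sub, LinearMap.sub_apply, n1, n3, e5, e6]
    linear_combination hxt - hσxt + ht
  refine ⟨Y₁ - Y₃, ?_, hnorm, t4⟩
  intro h7
  rw [h7, map_zero] at hnorm
  exact hw hnorm.symm

/-- The case `k ≥ 4`. -/
theorem slot_big (hσ : σ ≠ RingHom.id F) (hσ2 : ∀ x : F, σ (σ x) = x) (hS : B.IsSymm)
    (hM : ∀ g ∈ M, ∀ x y, B (g x) (g y) = B x y) (hk : 4 ≤ k)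
    {P P' : (Fin k → F) →ₗ[F] V} (pp : ∀ x y, B (P x) (P y) = 0) (qq : ∀ x y, B (P' x) (P' y) = 0)
    (pq : ∀ x y, B (P x) (P' y) = stB σ k x y)
    (h0 : ∀ v, stB σ k v v = 0 → HasT B M (P v) ∧ HasT B M (P' v))
    {w : Fin k → F} (hw : stB σ k w w ≠ 0) :
    ∃ v, v ≠ 0 ∧ stB σ k v v = stB σ k w w ∧ HasT B M (P v) := by
  have hSb := stB_symm hσ2 k
  obtain ⟨g₁, h₁, g₂, h₂, eg1, eh1, eg2, eh2, eg1h1, eg2h2, eg1g2, eg1h2, eh1g2, eh1h2⟩ :=
    exists_two_pairs (σ := σ) (n := k) hσ hσ2 hk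
  have eh1g1 : stB σ k h₁ g₁ = 1 := by rw [← hSb.eq, eg1h1, map_one]
  have eh2g2 : stB σ k h₂ g₂ = 1 := by rw [← hSb.eq, eg2h2, map_one]
  have eg2g1 := symm_zero hSb eg1g2
  have eh2g1 := symm_zero hSb eg1h2
  have eg2h1 := symm_zero hSb eh1g2
  have eh2h1 := symm_zero hSb eh1h2
  obtain ⟨l, hl0, hl⟩ := exists_skew hσ hσ2
  obtain ⟨p, hp, hpl⟩ : ∃ p : F, σ p ≠ p ∧ l + p ≠ 0 := by
    obtain ⟨p, hp⟩ := exists_fix_ne hσ
    by_cases hpl : l + p = 0
    · refine ⟨p + 1, ?_, ?_⟩
      · rw [map_add, map_one]; intro h; exact hp (add_right_cancel h)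
      · rw [← add_assoc, hpl, zero_add]; exact one_ne_zero
    · exact ⟨p, hp, hpl⟩
  have hσl : σ l = -l := by linear_combination hl
  obtain ⟨n, hn⟩ := HermWitt.trace_surj σ hσ hσ2 (-(stB σ k w w)) (by rw [map_neg, hSb.eq])
  have qp : ∀ x y, B (P' x) (P y) = stB σ k x y := fun x y => by rw [← hS.eq, pq, hSb.eq]
  -- form values
  have hval : ∀ x x' y y' : Fin k → F, B (P x + P' x') (P y + P' y')
      = stB σ k x y' + stB σ k x' y := by
    intro x x' y y'
    rw [map_add B, LinearMap.add_apply, map_add (B (P x)), map_add (B (P' x')), pp, qq, pq, qp]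
    ring
  -- sums
  have hsum : ∀ x x', stB σ k x x = 0 → stB σ k x' x' = 0 → stB σ k x x' ≠ 0 → stB σ k x x' + stB σ k x' x = 0 →
      HasT B M (P x + P' x') := by
    intro x x' hx hx' hne hxx'
    refine HasT.add hS hM (h0 x hx).1 (h0 x' hx').2 ?_ ?_
    · rw [qp]
      intro h
      exact hne (symm_zero hSb h)
    · rw [hval]; exact hxx'
  set ζ := σ p / l with hζ
  set β := p ^ 2 / l - l with hβ
  have hσζ : σ ζ = -(p / l) := by rw [hζ, map_div₀, hσ2, hσl, div_neg]
  -- first vector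
  have hv : HasT B M (P g₁ + P' (l • h₁)) := by
    apply hsum _ _ eg1
    · simp only [LinearMap.map_smulₛₗ₂, map_smul, eh1, smul_zero]
    · rw [map_smul, eg1h1, smul_eq_mul, mul_one]; exact hl0
    · rw [map_smul, LinearMap.map_smulₛₗ₂, eg1h1, eh1g1, smul_eq_mul, smul_eq_mul, mul_one, mul_one]; exact hl
  -- second vector
  have hx : HasT B M (P (ζ • g₁ + g₂) + P' (p • h₁ + β • h₂)) := by
    have hB : stB σ k (ζ • g₁ + g₂) (p • h₁ + β • h₂) = -l := by
      simp only [map_add, LinearMap.add_apply, LinearMap.map_smulₛₗ₂, map_smul, smul_eq_mul, eg1h1, eg1h2, eg2h1,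
        eg2h2, hσζ, hβ]
      field_simp
      ring
    apply hsum
    · simp only [map_add, LinearMap.add_apply, LinearMap.map_smulₛₗ₂, map_smul, smul_eq_mul, eg1, eg1g2, eg2g1,
        eg2]
      ring
    · simp only [map_add, LinearMap.add_apply, LinearMap.map_smulₛₗ₂, map_smul, smul_eq_mul, eh1, eh1h2, eh2h1,
        eh2]
      ring
    · rw [hB]; exact neg_ne_zero.mpr hl0
    · rw [← hSb.eq (ζ • g₁ + g₂), hB, map_neg, hσl]; ring
  -- the sum
  have hvx : HasT B M (P ((1 + ζ) • g₁ + g₂) + P' ((l + p) • h₁ + β • h₂)) := by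
    have hB : B (P g₁ + P' (l • h₁)) (P (ζ • g₁ + g₂) + P' (p • h₁ + β • h₂)) = p - σ p := by
      rw [hval]
      simp only [map_add, LinearMap.map_smulₛₗ₂, map_smul, smul_eq_mul, eg1h1, eg1h2, eh1g1, eh1g2, hσl, hζ]
      field_simp
      ring
    have h1 := HasT.add hS hM hv hx (by
        rw [← hS.eq, hB, map_sub, hσ2]
        exact sub_ne_zero.mpr hp) (by
        rw [map_add B, LinearMap.add_apply, map_add (B (P g₁ + P' (l • h₁))),
          map_add (B (P (ζ • g₁ + g₂) + P' (p • h₁ + β • h₂))), hv.1, hx.1, hB,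
          ← hS.eq (P g₁ + P' (l • h₁)), hB, map_sub, hσ2]
        ring)
    have e : P g₁ + P' (l • h₁) + (P (ζ • g₁ + g₂) + P' (p • h₁ + β • h₂))
        = P ((1 + ζ) • g₁ + g₂) + P' ((l + p) • h₁ + β • h₂) := by
      simp only [map_add, map_smul]
      module
    rw [e] at h1
    exact h1
  -- the third vector
  set s := σ ((l + l * σ n * β) / (l + p)) with hs
  have hσs : σ s = (l + l * σ n * β) / (l + p) := by rw [hs, hσ2]
  have hy1 : stB σ k (s • g₁ + (l * n) • g₂ + n • h₂) (s • g₁ + (l * n) • g₂ + n • h₂) = 0 := by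
    simp only [map_add, LinearMap.add_apply, LinearMap.map_smulₛₗ₂, map_smul, smul_eq_mul, eg1, eg1g2, eg1h2, eg2g1,
      eg2, eg2h2, eh2g1, eh2g2, eh2, map_mul, hσl]
    ring
  have hy' : stB σ k ((l + p) • h₁ + β • h₂) ((l + p) • h₁ + β • h₂) = 0 := by
    simp only [map_add, LinearMap.add_apply, LinearMap.map_smulₛₗ₂, map_smul, smul_eq_mul, eh1, eh1h2, eh2h1, eh2]
    ring
  have hyy' : stB σ k (s • g₁ + (l * n) • g₂ + n • h₂) ((l + p) • h₁ + β • h₂) = l := by
    simp only [map_add, LinearMap.add_apply, LinearMap.map_smulₛₗ₂, map_smul, smul_eq_mul, eg1h1, eg1h2, eg2h1, eg2h2,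
      eh2h1, eh2, map_mul, hσl, hσs]
    field_simp
    ring
  have hv1 : HasT B M (P (s • g₁ + (l * n) • g₂ + n • h₂) + P' ((l + p) • h₁ + β • h₂)) := by
    apply hsum _ _ hy1 hy'
    · rw [hyy']; exact hl0
    · rw [← hSb.eq (s • g₁ + (l * n) • g₂ + n • h₂), hyy']; exact hl
  have hyy0 : stB σ k ((1 + ζ) • g₁ + g₂) ((l + p) • h₁ + β • h₂) = 0 := by
    simp only [map_add, LinearMap.add_apply, LinearMap.map_smulₛₗ₂, map_smul, smul_eq_mul, eg1h1, eg1h2, eg2h1,
      eg2h2, hσζ, hβ, map_one]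
    field_simp
    ring
  -- the difference
  have e : P (s • g₁ + (l * n) • g₂ + n • h₂) + P' ((l + p) • h₁ + β • h₂) +
      (-1 : F) • (P ((1 + ζ) • g₁ + g₂) + P' ((l + p) • h₁ + β • h₂)) =
      P ((s • g₁ + (l * n) • g₂ + n • h₂) - ((1 + ζ) • g₁ + g₂)) := by
    rw [map_sub]
    module
  have hd := HasT.add hS hM hv1 (hvx.smul hσ2 (-1)) (by
      rw [LinearMap.map_smulₛₗ₂, hval, hyy0, zero_add, ← hSb.eq (s • g₁ + (l * n) • g₂ + n • h₂), hyy', map_neg,
        map_one, smul_eq_mul, hσl]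
      intro h
      exact hl0 (by linear_combination h)) (by
      rw [e]; exact pp _ _)
  rw [e] at hd
  set wn := (s • g₁ + (l * n) • g₂ + n • h₂) - ((1 + ζ) • g₁ + g₂) with hwn
  have hnorm : stB σ k wn wn = stB σ k w w := by
    rw [hwn]
    simp only [map_add, map_sub, LinearMap.add_apply, LinearMap.sub_apply, LinearMap.map_smulₛₗ₂, map_smul,
      smul_eq_mul, eg1, eg1g2, eg1h2, eg2g1, eg2, eg2h2, eh2g1, eh2g2, eh2, map_mul, hσl]
    linear_combination -hn
  refine ⟨wn, ?_, hnorm, hd⟩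
  intro h
  rw [h, map_zero] at hnorm
  exact hw hnorm.symm

/-- **Lemma A.** All vectors of the last slot. -/
theorem slot_all (hσ : σ ≠ RingHom.id F) (hσ2 : ∀ x : F, σ (σ x) = x) (hS : B.IsSymm)
    (hM : ∀ g ∈ M, ∀ x y, B (g x) (g y) = B x y) (hk : 3 ≤ k) (hq : 4 ≤ k ∨ ∃ c : F, c ≠ 0 ∧ σ c * c ≠ 1)
    {P P' : (Fin k → F) →ₗ[F] V} (pp : ∀ x y, B (P x) (P y) = 0) (qq : ∀ x y, B (P' x) (P' y) = 0)
    (pq : ∀ x y, B (P x) (P' y) = stB σ k x y)
    (h0 : ∀ v, stB σ k v v = 0 → HasT B M (P v) ∧ HasT B M (P' v))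
    (hg : ∀ z : (Fin k → F) ≃ₗ[F] (Fin k → F), (∀ x y, stB σ k (z x) (z y) = stB σ k x y) →
      LinearMap.det (z : (Fin k → F) →ₗ[F] (Fin k → F)) = 1 → ∃ g ∈ M, ∀ x, g (P x) = P (z x))
    (w : Fin k → F) : HasT B M (P w) := by
  by_cases hw : stB σ k w w = 0
  · exact (h0 w hw).1
  obtain ⟨v, hv0, hvw, hv⟩ : ∃ v, v ≠ 0 ∧ stB σ k v v = stB σ k w w ∧ HasT B M (P v) := by
    rcases hq with hq | hq
    · exact slot_big hσ hσ2 hS hM hq pp qq pq h0 hw
    · exact slot_small hσ hσ2 hS hM hk hq pp qq pq h0 hw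
  have hw0 : w ≠ 0 := by
    rintro rfl
    exact hw (by simp)
  obtain ⟨z, hz, hzd, hzw⟩ := exists_su hσ hσ2 hk hv0 hw0 hvw
  obtain ⟨g, hgM, hgP⟩ := hg z hz hzd
  have h2 := hv.map hgM (hM g hgM)
  rwa [hgP, hzw] at h2

end Cfsg.Agent.H594.TensGen
end

-- part: H594/TensGenMain
section
/-!
**Generation**: an isometry group of `(F^k)^{⊗ t}`, `t ≥ 2`, containing `SU_k` in each slot and the transvections
centred at pure tensors of isotropic vectors contains all unitary transvections (helper594).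
-/

set_option autoImplicit false
set_option linter.unusedSectionVars false

namespace Cfsg.Agent.H594.TensGen

open Module Cfsg.Agent.ClassicalGeometry Matrix Cfsg.Agent.H880 Cfsg.Agent.H881 Cfsg.Agent.H919

section Forms

variable {F : Type*} [Field F] (σ : F →+* F)

/-- The standard hermitian form. -/
def stF (ι : Type*) [Fintype ι] : (ι → F) →ₛₗ[σ] (ι → F) →ₗ[F] F :=
  LinearMap.mk₂'ₛₗ σ (RingHom.id F) (fun x y => ∑ i, σ (x i) * y i)
    (fun x x' y => by simp [add_mul, Finset.sum_add_distrib])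
    (fun c x y => by simp [Finset.mul_sum, mul_assoc])
    (fun x y y' => by simp [mul_add, Finset.sum_add_distrib])
    (fun c x y => by
      simp only [Pi.smul_apply, smul_eq_mul, RingHom.id_apply, Finset.mul_sum]
      exact Finset.sum_congr rfl fun i _ => by ring)

variable {σ}

theorem stF_apply {ι : Type*} [Fintype ι] (x y : ι → F) : stF σ ι x y = ∑ i, σ (x i) * y i := rfl

theorem stF_symm (hσ2 : ∀ x : F, σ (σ x) = x) (ι : Type*) [Fintype ι] : (stF σ ι).IsSymm := by
  refine ⟨fun x y => ?_⟩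
  rw [stF_apply, stF_apply, map_sum]
  refine Finset.sum_congr rfl fun i _ => ?_
  rw [map_mul, hσ2, mul_comm]

theorem stF_sepLeft (ι : Type*) [Fintype ι] : (stF σ ι).SeparatingLeft := by
  classical
  intro x hx
  funext i
  have h := hx (Pi.single i 1)
  rw [stF_apply, Finset.sum_eq_single i] at h
  · rw [Pi.single_eq_same, mul_one] at h
    exact (map_eq_zero σ).mp h
  · intro j _ hj; rw [Pi.single_eq_of_ne hj, mul_zero]
  · intro h; exact absurd (Finset.mem_univ i) h

theorem stF_fin (n : ℕ) : stF σ (Fin n) = stB σ n := rfl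

/-- Product formula. -/
theorem stF_pvec {k t : ℕ} (u v : Fin t → Fin k → F) :
    stF σ (Fin t → Fin k) (pvec u) (pvec v) = ∏ i, stB σ k (u i) (v i) := by
  rw [stF_apply]
  simp only [stB_apply]
  rw [Finset.prod_univ_sum, Fintype.piFinset_univ]
  refine Finset.sum_congr rfl fun f _ => ?_
  unfold pvec
  rw [map_prod, Finset.prod_mul_distrib]

end Forms

section Cons

variable {F : Type*} [Field F] {σ : F →+* F} {k n : ℕ}

/-- Splitting off the slot `0`. -/
def cE (F : Type*) [Field F] (k n : ℕ) : ((Fin (n + 1) → Fin k) → F) ≃ₗ[F] (Fin k → ((Fin n → Fin k) → F)) where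
  toFun Z := fun j f => Z (Fin.cons j f)
  map_add' _ _ := rfl
  map_smul' _ _ := rfl
  invFun X := fun f => X (f 0) (Fin.tail f)
  left_inv Z := by
    funext f
    show Z (Fin.cons (f 0) (Fin.tail f)) = Z f
    rw [Fin.cons_self_tail]
  right_inv X := by
    funext j f
    rfl

theorem stF_cE (Z W : (Fin (n + 1) → Fin k) → F) :
    stF σ _ Z W = bF (stF σ (Fin n → Fin k)) (cE F k n Z) (cE F k n W) := by
  unfold bF
  simp only [stF_apply]
  rw [← (Fin.consEquiv (fun _ : Fin (n + 1) => Fin k)).sum_comp, Fintype.sum_prod_type]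
  rfl

theorem bF_cE_symm (X Y : Fin k → ((Fin n → Fin k) → F)) :
    stF σ _ ((cE F k n).symm X) ((cE F k n).symm Y) = bF (stF σ (Fin n → Fin k)) X Y := by
  rw [stF_cE, LinearEquiv.apply_symm_apply, LinearEquiv.apply_symm_apply]

theorem pvec_cons (v : Fin k → F) (u : Fin n → Fin k → F) :
    pvec (Fin.cons v u : Fin (n + 1) → Fin k → F) = (cE F k n).symm (tp v (pvec u)) := by
  funext f
  show ∏ i, (Fin.cons v u : Fin (n + 1) → Fin k → F) i (f i) = v (f 0) * ∏ i, u i (f i.succ)
  rw [Fin.prod_univ_succ, Fin.cons_zero]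
  rfl

/-- `y ↦ v ⊗ y`. -/
def tpL {E : Type*} [AddCommGroup E] [Module F E] (v : Fin k → F) : E →ₗ[F] (Fin k → E) where
  toFun y := tp v y
  map_add' := tp_add_right v
  map_smul' c y := tp_smul_right c v y

theorem tpL_apply {E : Type*} [AddCommGroup E] [Module F E] (v : Fin k → F) (y : E) : tpL v y = tp v y := rfl

theorem tp_cE_form (v v' : Fin k → F) (y y' : (Fin n → Fin k) → F) :
    stF σ _ ((cE F k n).symm (tp v y)) ((cE F k n).symm (tp v' y')) = stB σ k v v' * stF σ (Fin n → Fin k) y y' := by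
  rw [bF_cE_symm, bF_tp_left, cn_tp, map_smul, smul_eq_mul]

end Cons

section Rec

variable {F : Type*} [Field F] {σ : F →+* F} [Finite F] {V : Type*} [AddCommGroup V] [Module F V]
  {B : V →ₛₗ[σ] V →ₗ[F] F} {M : Subgroup (V ≃ₗ[F] V)} {k : ℕ}

/-- **Lemma C.** -/
theorem rec_all (hσ : σ ≠ RingHom.id F) (hσ2 : ∀ x : F, σ (σ x) = x) (hS : B.IsSymm)
    (hM : ∀ g ∈ M, ∀ x y, B (g x) (g y) = B x y) (hk : 3 ≤ k) (r : ℕ) :
    ∀ P P' : ((Fin (r + 1) → Fin k) → F) →ₗ[F] V, (∀ X Y, B (P X) (P Y) = 0) → (∀ X Y, B (P' X) (P' Y) = 0) →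
      (∀ X Y, B (P X) (P' Y) = stF σ _ X Y) →
      (∀ u : Fin (r + 1) → Fin k → F, (∀ i, i ≠ Fin.last r → stB σ k (u i) (u i) = 0) →
        HasT B M (P (pvec u)) ∧ HasT B M (P' (pvec u))) →
      ∀ X, HasT B M (P X) ∧ HasT B M (P' X) := by
  induction r with
  | zero =>
    intro P P' _ _ _ h X
    have : Subsingleton (Fin (0 + 1)) := inferInstanceAs (Subsingleton (Fin 1))
    have e : X = pvec (fun (_ : Fin 1) (j : Fin k) => X (fun _ => j)) := by
      funext f
      show X f = ∏ i : Fin 1, X (fun _ => f i)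
      rw [Fin.prod_univ_one]
      congr 1
      funext i
      rw [Subsingleton.elim i 0]
    rw [e]
    exact h _ fun i hi => absurd (Subsingleton.elim i _) hi
  | succ r ih =>
    intro P P' pp qq pq h X
    set b := stF σ (Fin (r + 1) → Fin k) with hb
    have hSb : b.IsSymm := stF_symm hσ2 _
    have hB : b.SeparatingLeft := stF_sepLeft _
    let Q : (Fin k → ((Fin (r + 1) → Fin k) → F)) →ₗ[F] V := P ∘ₗ ((cE F k (r + 1)).symm : _ →ₗ[F] _)
    let Q' : (Fin k → ((Fin (r + 1) → Fin k) → F)) →ₗ[F] V := P' ∘ₗ ((cE F k (r + 1)).symm : _ →ₗ[F] _)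
    have hQ : ∀ X, Q X = P ((cE F k (r + 1)).symm X) := fun X => rfl
    have hQ' : ∀ X, Q' X = P' ((cE F k (r + 1)).symm X) := fun X => rfl
    have hDu : Du B b Q Q' := ⟨fun X Y => pp _ _, fun X Y => qq _ _, fun X Y => by
      rw [hQ, hQ', pq, bF_cE_symm]⟩
    -- one hyperbolic pair
    have hpair : ∀ v v' : Fin k → F, stB σ k v v = 0 → stB σ k v' v' = 0 → stB σ k v v' = 1 →
        ∀ y, HasT B M (Q (tp v y)) ∧ HasT B M (Q' (tp v' y)) := by
      intro v v' hv hv' hvv'
      refine ih (Q ∘ₗ tpL v) (Q' ∘ₗ tpL v') (fun X Y => pp _ _) (fun X Y => qq _ _) (fun X Y => ?_) (fun u hu => ?_)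
      · show B (P ((cE F k (r + 1)).symm (tp v X))) (P' ((cE F k (r + 1)).symm (tp v' Y))) = _
        rw [pq, tp_cE_form, hvv', one_mul]
      · show HasT B M (P ((cE F k (r + 1)).symm (tp v (pvec u)))) ∧ HasT B M (P' ((cE F k (r + 1)).symm (tp v' (pvec u))))
        rw [← pvec_cons, ← pvec_cons]
        have hw : ∀ w : Fin k → F, stB σ k w w = 0 → ∀ i, i ≠ Fin.last (r + 1) →
            stB σ k ((Fin.cons w u : Fin (r + 2) → Fin k → F) i) ((Fin.cons w u : Fin (r + 2) → Fin k → F) i) = 0 := by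
          intro w hw i hi
          refine Fin.cases ?_ (fun j => ?_) i (motive := fun i => i ≠ Fin.last (r + 1) →
            stB σ k ((Fin.cons w u : Fin (r + 2) → Fin k → F) i) ((Fin.cons w u : Fin (r + 2) → Fin k → F) i) = 0) hi
          · intro _
            rw [Fin.cons_zero]; exact hw
          · intro hj
            rw [Fin.cons_succ]
            exact hu j fun h => hj (by rw [h, Fin.succ_last])
        exact ⟨(h _ (hw v hv)).1, (h _ (hw v' hv')).2⟩
    have hiso : ∀ (y : (Fin (r + 1) → Fin k) → F) (v : Fin k → F), stB σ k v v = 0 →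
        HasT B M (Q (tp v y)) ∧ HasT B M (Q' (tp v y)) := by
      intro y v hv
      by_cases hv0 : v = 0
      · subst hv0
        rw [tp_zero_left, map_zero, map_zero]
        exact ⟨hasT_zero, hasT_zero⟩
      · obtain ⟨v', hvv', hv'⟩ := exists_partner_std hσ hσ2 hv0 hv
        have hv'v : stB σ k v' v = 1 := by rw [← (stB_symm hσ2 k).eq, hvv', map_one]
        exact ⟨(hpair v v' hv hv' hvv' y).1, (hpair v' v hv' hv hv'v y).2⟩
    have hdim : 1 < finrank F ((Fin (r + 1) → Fin k) → F) := by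
      rw [Module.finrank_fintype_fun_eq_card, Fintype.card_fun, Fintype.card_fin, Fintype.card_fin]
      exact Nat.one_lt_pow (by omega) (by omega)
    have hall := all_of_iso hσ hσ2 hS hM hSb hB
      (fun y hy => exists_linearIndependent_pair_of_one_lt_finrank hdim hy) hk hDu hiso (cE F k (r + 1) X)
    rw [hQ, hQ', LinearEquiv.symm_apply_apply] at hall
    exact hall

end Rec

section Final

variable {F : Type*} [Field F] {σ : F →+* F} {k : ℕ}

/-- `x ↦ pvec (update u i x)`. -/
def pvL {s : ℕ} (u : Fin (s + 1) → Fin k → F) (i : Fin (s + 1)) : (Fin k → F) →ₗ[F] ((Fin (s + 1) → Fin k) → F) where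
  toFun x := pvec (Function.update u i x)
  map_add' x y := by
    funext f
    show ∏ j, Function.update u i (x + y) j (f j) =
      ∏ j, Function.update u i x j (f j) + ∏ j, Function.update u i y j (f j)
    rw [Fin.prod_univ_succAbove _ i, Fin.prod_univ_succAbove _ i, Fin.prod_univ_succAbove _ i]
    simp only [Function.update_self, Function.update_of_ne (Fin.succAbove_ne i _), Pi.add_apply, add_mul]
  map_smul' c x := by
    funext f
    show ∏ j, Function.update u i (c • x) j (f j) = c * ∏ j, Function.update u i x j (f j)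
    rw [Fin.prod_univ_succAbove _ i, Fin.prod_univ_succAbove _ i]
    simp only [Function.update_self, Function.update_of_ne (Fin.succAbove_ne i _), Pi.smul_apply, smul_eq_mul, mul_assoc]

theorem pvL_apply {s : ℕ} (u : Fin (s + 1) → Fin k → F) (i : Fin (s + 1)) (x : Fin k → F) :
    pvL u i x = pvec (Function.update u i x) := rfl

theorem pvL_form {s : ℕ} (u v : Fin (s + 1) → Fin k → F) (i : Fin (s + 1)) (x y : Fin k → F) :
    stF σ _ (pvL u i x) (pvL v i y) = stB σ k x y * ∏ j, stB σ k (u (i.succAbove j)) (v (i.succAbove j)) := by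
  rw [pvL_apply, pvL_apply, stF_pvec, Fin.prod_univ_succAbove _ i]
  simp only [Function.update_self, Function.update_of_ne (Fin.succAbove_ne i _)]

theorem slotMat_pvec {t : ℕ} (i : Fin t) (A : Matrix (Fin k) (Fin k) F) (u : Fin t → Fin k → F) :
    slotMat i A *ᵥ pvec u = pvec (Function.update u i (A *ᵥ u i)) := by
  have h1 : ∀ x : Fin t → Matrix (Fin k) (Fin k) F, pureMat x *ᵥ pvec u = pvec (fun j => x j *ᵥ u j) := by
    intro x
    funext f
    show ∑ g : Fin t → Fin k, (∏ j, x j (f j) (g j)) * ∏ j, u j (g j) = ∏ j, ∑ c, x j (f j) c * u j c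
    rw [Finset.prod_univ_sum, Fintype.piFinset_univ]
    refine Finset.sum_congr rfl fun g _ => ?_
    rw [Finset.prod_mul_distrib]
  rw [slotMat, h1]
  congr 1
  funext j
  by_cases hj : j = i
  · subst hj
    rw [Function.update_self, Function.update_self]
  · rw [Function.update_of_ne hj, Function.update_of_ne hj, Matrix.one_mulVec]

/-- `M` as a group of linear equivalences. -/
def mL {t : ℕ} (M : Subgroup (Matrix.GeneralLinearGroup (Fin t → Fin k) F)) :
    Subgroup (((Fin t → Fin k) → F) ≃ₗ[F] ((Fin t → Fin k) → F)) :=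
  M.comap (ofMat (LinearEquiv.refl F _))

theorem ofMat_refl_mulVec {t : ℕ} (g : ((Fin t → Fin k) → F) ≃ₗ[F] ((Fin t → Fin k) → F)) (x : (Fin t → Fin k) → F) :
    ((ofMat (LinearEquiv.refl F _) g : Matrix.GeneralLinearGroup (Fin t → Fin k) F) :
      Matrix (Fin t → Fin k) (Fin t → Fin k) F) *ᵥ x = g x :=
  ofMat_mulVec (LinearEquiv.refl F _) g x

theorem mL_iso {t : ℕ} {M : Subgroup (Matrix.GeneralLinearGroup (Fin t → Fin k) F)}
    (hM : ∀ g ∈ M, ((g : Matrix (Fin t → Fin k) (Fin t → Fin k) F).map σ)ᵀ *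
      (g : Matrix (Fin t → Fin k) (Fin t → Fin k) F) = 1) :
    ∀ g ∈ mL M, ∀ x y, stF σ _ (g x) (g y) = stF σ _ x y := by
  intro g hg x y
  have h1 := unit_iso (hM _ hg) x y
  rw [ofMat_refl_mulVec g x, ofMat_refl_mulVec g y] at h1
  exact h1

theorem exists_mL {t : ℕ} {M : Subgroup (Matrix.GeneralLinearGroup (Fin t → Fin k) F)}
    {G : Matrix.GeneralLinearGroup (Fin t → Fin k) F} (hG : G ∈ M) :
    ∃ g ∈ mL M, ∀ x, g x = (G : Matrix (Fin t → Fin k) (Fin t → Fin k) F) *ᵥ x := by
  obtain ⟨g, hg⟩ := ofMat_surjective (LinearEquiv.refl F _) G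
  refine ⟨g, by show ofMat _ g ∈ M; rw [hg]; exact hG, fun x => ?_⟩
  rw [← hg, ofMat_refl_mulVec]

theorem tv_mulVec {t : ℕ} (l : F) (w x : (Fin t → Fin k) → F) :
    (1 + l • vecMulVec w (σ ∘ w) : Matrix (Fin t → Fin k) (Fin t → Fin k) F) *ᵥ x =
      x + (l * stF σ _ w x) • w := by
  rw [Matrix.add_mulVec, Matrix.one_mulVec, Matrix.smul_mulVec, Matrix.vecMulVec_mulVec, mul_smul]
  congr 1
  congr 1
  funext f
  show w f * _ = _ * w f
  rw [mul_comm]
  rfl

section Main

variable [Finite F] {r : ℕ} {M : Subgroup (Matrix.GeneralLinearGroup (Fin (r + 2) → Fin k) F)}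

theorem pure_hasT (h : PureT σ M) (u : Fin (r + 2) → Fin k → F) (hu : ∀ i, stB σ k (u i) (u i) = 0) :
    HasT (stF σ (Fin (r + 2) → Fin k)) (mL M) (pvec u) := by
  refine ⟨?_, fun l hl => ?_⟩
  · rw [stF_pvec]
    exact Finset.prod_eq_zero (Finset.mem_univ 0) (hu 0)
  · obtain ⟨G, hG, hGe⟩ := h u hu l hl
    obtain ⟨g, hg, hgx⟩ := exists_mL hG
    refine ⟨g, hg, fun x => ?_⟩
    rw [hgx, hGe, tv_mulVec]

/-- The element `1 ⊗ ... ⊗ 1 ⊗ z`. -/
theorem exists_slot (hM : OverT σ M) (u : Fin (r + 2) → Fin k → F) (i : Fin (r + 2))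
    (z : (Fin k → F) ≃ₗ[F] (Fin k → F)) (hz : ∀ x y, stB σ k (z x) (z y) = stB σ k x y)
    (hzd : LinearMap.det (z : (Fin k → F) →ₗ[F] (Fin k → F)) = 1) :
    ∃ g ∈ mL M, ∀ x, g (pvL u i x) = pvL u i (z x) := by
  have hA : ∀ x, LinearMap.toMatrix' (z : (Fin k → F) →ₗ[F] (Fin k → F)) *ᵥ x = z x := by
    intro x
    rw [← Matrix.toLin'_apply, Matrix.toLin'_toMatrix']
    rfl
  obtain ⟨G, hG, hGe⟩ := hM.slot i (LinearMap.toMatrix' (z : (Fin k → F) →ₗ[F] (Fin k → F)))
    (iso_unit (fun x y => by rw [hA, hA, hz])) (by rw [LinearMap.det_toMatrix', hzd])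
  obtain ⟨g, hg, hgx⟩ := exists_mL hG
  refine ⟨g, hg, fun x => ?_⟩
  rw [hgx, hGe, pvL_apply, slotMat_pvec, Function.update_self, Function.update_idem, hA, pvL_apply]

theorem upd_iso (w : Fin (r + 2) → Fin k → F) (v : Fin k → F) (hw : ∀ i, i ≠ Fin.last (r + 1) → stB σ k (w i) (w i) = 0)
    (hv : stB σ k v v = 0) (i : Fin (r + 2)) : stB σ k (Function.update w (Fin.last (r + 1)) v i)
      (Function.update w (Fin.last (r + 1)) v i) = 0 := by
  by_cases hi : i = Fin.last (r + 1)
  · subst hi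
    rw [Function.update_self]; exact hv
  · rw [Function.update_of_ne hi]; exact hw i hi

theorem last_hasT (hs : σ ≠ RingHom.id F) (hs2 : ∀ x, σ (σ x) = x) (hk : 3 ≤ k)
    (hq : 4 ≤ k ∨ ∃ c : F, c ≠ 0 ∧ σ c * c ≠ 1) (hM : OverT σ M) (h : PureT σ M)
    (u : Fin (r + 2) → Fin k → F) (hu : ∀ i, i ≠ Fin.last (r + 1) → stB σ k (u i) (u i) = 0) :
    HasT (stF σ (Fin (r + 2) → Fin k)) (mL M) (pvec u) := by
  by_cases hu0 : ∃ i, u i = 0
  · obtain ⟨i, hi⟩ := hu0
    have e : pvec u = 0 := by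
      funext f
      show ∏ j, u j (f j) = 0
      exact Finset.prod_eq_zero (Finset.mem_univ i) (by rw [hi]; rfl)
    rw [e]
    exact hasT_zero
  push Not at hu0
  have hpart : ∀ i, ∃ u', i ≠ Fin.last (r + 1) → stB σ k (u i) u' = 1 ∧ stB σ k u' u' = 0 := by
    intro i
    by_cases hi : i = Fin.last (r + 1)
    · exact ⟨0, fun h => absurd hi h⟩
    · obtain ⟨u', h1, h2⟩ := exists_partner_std hs hs2 (hu0 i) (hu i hi)
      exact ⟨u', fun _ => ⟨h1, h2⟩⟩
  choose u' hu' using hpart
  have hne : ∀ j, (Fin.last (r + 1)).succAbove j ≠ Fin.last (r + 1) := fun j => Fin.succAbove_ne _ j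
  have key := slot_all hs hs2 (stF_symm hs2 (Fin (r + 2) → Fin k)) (mL_iso (M := M) hM.iso) hk hq
    (P := pvL u (Fin.last (r + 1))) (P' := pvL u' (Fin.last (r + 1)))
    (fun x y => by
      rw [pvL_form, Finset.prod_eq_zero (Finset.mem_univ 0) (hu _ (hne 0)), mul_zero])
    (fun x y => by
      rw [pvL_form, Finset.prod_eq_zero (Finset.mem_univ 0) (hu' _ (hne 0)).2, mul_zero])
    (fun x y => by
      rw [pvL_form, Finset.prod_congr rfl (fun j _ => (hu' _ (hne j)).1), Finset.prod_const_one, mul_one])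
    (fun v hv => ⟨pure_hasT h _ (upd_iso u v hu hv), pure_hasT h _ (upd_iso u' v (fun i hi => (hu' i hi).2) hv)⟩)
    (fun z hz hzd => exists_slot hM u _ z hz hzd)
    (u (Fin.last (r + 1)))
  rw [pvL_apply, Function.update_eq_self] at key
  exact key

theorem cons_iso (u : Fin (r + 1) → Fin k → F) (hu : ∀ i, i ≠ Fin.last r → stB σ k (u i) (u i) = 0)
    (w : Fin k → F) (hw : stB σ k w w = 0) (i : Fin (r + 2)) (hi : i ≠ Fin.last (r + 1)) :
    stB σ k ((Fin.cons w u : Fin (r + 2) → Fin k → F) i) ((Fin.cons w u : Fin (r + 2) → Fin k → F) i) = 0 := by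
  refine Fin.cases ?_ (fun j => ?_) i (motive := fun i => i ≠ Fin.last (r + 1) →
    stB σ k ((Fin.cons w u : Fin (r + 2) → Fin k → F) i) ((Fin.cons w u : Fin (r + 2) → Fin k → F) i) = 0) hi
  · intro _
    rw [Fin.cons_zero]; exact hw
  · intro hj
    rw [Fin.cons_succ]
    exact hu j fun h => hj (by rw [h, Fin.succ_last])

theorem zero_hasT (hs : σ ≠ RingHom.id F) (hs2 : ∀ x, σ (σ x) = x) (hk : 3 ≤ k)
    (hq : 4 ≤ k ∨ ∃ c : F, c ≠ 0 ∧ σ c * c ≠ 1) (hM : OverT σ M) (h : PureT σ M)
    (v : Fin k → F) (Y : (Fin (r + 1) → Fin k) → F) (hv : stB σ k v v = 0) :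
      HasT (stF σ (Fin (r + 2) → Fin k)) (mL M) ((cE F k (r + 1)).symm (tp v Y)) := by
  by_cases hv0 : v = 0
  · subst hv0
    rw [tp_zero_left, map_zero]
    exact hasT_zero
  obtain ⟨v', hvv', hv'⟩ := exists_partner_std hs hs2 hv0 hv
  refine (rec_all hs hs2 (stF_symm hs2 (Fin (r + 2) → Fin k)) (mL_iso (M := M) hM.iso) hk r
    (((cE F k (r + 1)).symm : (Fin k → ((Fin (r + 1) → Fin k) → F)) →ₗ[F] ((Fin (r + 2) → Fin k) → F)) ∘ₗ tpL v)
    (((cE F k (r + 1)).symm : (Fin k → ((Fin (r + 1) → Fin k) → F)) →ₗ[F] ((Fin (r + 2) → Fin k) → F)) ∘ₗ tpL v')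
    (fun X Y => ?_) (fun X Y => ?_) (fun X Y => ?_) (fun u hu => ?_) Y).1
  · show stF σ _ ((cE F k (r + 1)).symm (tp v X)) ((cE F k (r + 1)).symm (tp v Y)) = 0
    rw [tp_cE_form, hv, zero_mul]
  · show stF σ _ ((cE F k (r + 1)).symm (tp v' X)) ((cE F k (r + 1)).symm (tp v' Y)) = 0
    rw [tp_cE_form, hv', zero_mul]
  · show stF σ _ ((cE F k (r + 1)).symm (tp v X)) ((cE F k (r + 1)).symm (tp v' Y)) = _
    rw [tp_cE_form, hvv', one_mul]
  · show HasT (stF σ (Fin (r + 2) → Fin k)) (mL M) ((cE F k (r + 1)).symm (tp v (pvec u))) ∧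
      HasT (stF σ (Fin (r + 2) → Fin k)) (mL M) ((cE F k (r + 1)).symm (tp v' (pvec u)))
    rw [← pvec_cons, ← pvec_cons]
    exact ⟨last_hasT hs hs2 hk hq hM h _ (cons_iso u hu v hv), last_hasT hs hs2 hk hq hM h _ (cons_iso u hu v' hv')⟩

theorem all_hasT (hs : σ ≠ RingHom.id F) (hs2 : ∀ x, σ (σ x) = x) (hk : 3 ≤ k)
    (hq : 4 ≤ k ∨ ∃ c : F, c ≠ 0 ∧ σ c * c ≠ 1) (hM : OverT σ M) (h : PureT σ M)
    (w : (Fin (r + 2) → Fin k) → F) (hw : stF σ _ w w = 0) :
      HasT (stF σ (Fin (r + 2) → Fin k)) (mL M) w := by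
  have hdim : 3 ≤ finrank F ((Fin (r + 1) → Fin k) → F) := by
    rw [Module.finrank_fintype_fun_eq_card, Fintype.card_fun, Fintype.card_fin, Fintype.card_fin]
    calc 3 ≤ k := hk
      _ = k ^ 1 := (pow_one k).symm
      _ ≤ k ^ (r + 1) := Nat.pow_le_pow_right (by omega) (by omega)
  have h1 := gen_all hs hs2 (stF_symm hs2 (Fin (r + 2) → Fin k)) (mL_iso (M := M) hM.iso)
    (stF_symm hs2 (Fin (r + 1) → Fin k)) (stF_sepLeft _)
    (Φ := ((cE F k (r + 1)).symm : (Fin k → ((Fin (r + 1) → Fin k) → F)) →ₗ[F] ((Fin (r + 2) → Fin k) → F)))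
    (fun X Y => bF_cE_symm X Y) (fun u w hu => zero_hasT hs hs2 hk hq hM h u w hu)
    (by omega : 2 ≤ k) hdim (cE F k (r + 1) w) (by rw [← stF_cE]; exact hw)
  have e : ((cE F k (r + 1)).symm : (Fin k → ((Fin (r + 1) → Fin k) → F)) →ₗ[F] ((Fin (r + 2) → Fin k) → F))
    (cE F k (r + 1) w) = w := (cE F k (r + 1)).symm_apply_apply w
  rw [e] at h1
  exact h1

end Main

/-- **Main theorem.** -/
theorem transvT_of_pureT {F : Type*} [Field F] [Finite F] {sigma : F →+* F} {k s : Nat}
    (hs : sigma ≠ RingHom.id F) (hs2 : ∀ x, sigma (sigma x) = x) (hk : 3 ≤ k) (hs1 : 1 ≤ s)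
    (hq : 4 ≤ k ∨ ∃ c : F, c ≠ 0 ∧ sigma c * c ≠ 1)
    {M : Subgroup (Matrix.GeneralLinearGroup (Fin (s+1) → Fin k) F)} (hM : OverT sigma M) (h : PureT sigma M) :
    TransvT sigma M := by
  obtain ⟨r, rfl⟩ : ∃ r, s = r + 1 := ⟨s - 1, by omega⟩
  intro w hw l hl
  obtain ⟨g, hg, hgx⟩ := (all_hasT hs hs2 hk hq hM h w hw).2 l hl
  refine ⟨ofMat (LinearEquiv.refl F _) g, hg, ?_⟩
  apply Matrix.mulVec_injective
  funext x
  rw [tv_mulVec, ← hgx x, ofMat_refl_mulVec]

end Final

end Cfsg.Agent.H594.TensGen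
end

-- part: H891/C7/Grow
section
/-!
# S5672, part (A1b): growth of the support of a pure element (helper891)
-/

set_option autoImplicit false

namespace Cfsg.Agent.H891.C7

open Matrix Cfsg.Agent.H919 Cfsg.Agent.H881 Cfsg.Agent.H880 Module Cfsg.Agent.ClassicalGeometry


section ring

variable {F : Type*} [Field F] {n : Type*} [Fintype n] [DecidableEq n]

/-- `1 + X` is an element of `M`. -/
def In (M : Subgroup (Matrix.GeneralLinearGroup n F)) (X : Matrix n n F) : Prop :=
  ∃ g ∈ M, (g : Matrix n n F) = 1 + X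

theorem In.conj {M : Subgroup (Matrix.GeneralLinearGroup n F)} {X : Matrix n n F} (h : In M X)
    {g : Matrix.GeneralLinearGroup n F} (hg : g ∈ M) :
    In M ((g : Matrix n n F) * X * ((g⁻¹ : Matrix.GeneralLinearGroup n F) : Matrix n n F)) := by
  obtain ⟨x, hx, hX⟩ := h
  refine ⟨g * x * g⁻¹, M.mul_mem (M.mul_mem hg hx) (M.inv_mem hg), ?_⟩
  rw [Units.val_mul, Units.val_mul, hX, mul_add, mul_one, add_mul, Units.mul_inv]

/-- The commutator of `1 + X` and `1 + Y`. -/
theorem In.comm {M : Subgroup (Matrix.GeneralLinearGroup n F)} {X Y : Matrix n n F} (hX : In M X) (hY : In M Y)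
    (h1 : X * X = 0) (h2 : Y * Y = 0) (h3 : X * Y * X = 0) (h4 : Y * X * Y = 0) : In M (X * Y - Y * X) := by
  obtain ⟨x, hx, hX⟩ := hX
  obtain ⟨y, hy, hY⟩ := hY
  have hxi : ((x⁻¹ : Matrix.GeneralLinearGroup n F) : Matrix n n F) = 1 - X := by
    have e : (x : Matrix n n F) * (1 - X) = 1 := by
      rw [hX]
      have : (1 + X) * (1 - X) = 1 - X * X := by noncomm_ring
      rw [this, h1, sub_zero]
    calc ((x⁻¹ : Matrix.GeneralLinearGroup n F) : Matrix n n F)
        = ((x⁻¹ : Matrix.GeneralLinearGroup n F) : Matrix n n F) * ((x : Matrix n n F) * (1 - X)) := by rw [e, mul_one]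
      _ = 1 - X := by rw [← mul_assoc, Units.inv_mul, one_mul]
  have hyi : ((y⁻¹ : Matrix.GeneralLinearGroup n F) : Matrix n n F) = 1 - Y := by
    have e : (y : Matrix n n F) * (1 - Y) = 1 := by
      rw [hY]
      have : (1 + Y) * (1 - Y) = 1 - Y * Y := by noncomm_ring
      rw [this, h2, sub_zero]
    calc ((y⁻¹ : Matrix.GeneralLinearGroup n F) : Matrix n n F)
        = ((y⁻¹ : Matrix.GeneralLinearGroup n F) : Matrix n n F) * ((y : Matrix n n F) * (1 - Y)) := by rw [e, mul_one]
      _ = 1 - Y := by rw [← mul_assoc, Units.inv_mul, one_mul]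
  refine ⟨x * y * x⁻¹ * y⁻¹, M.mul_mem (M.mul_mem (M.mul_mem hx hy) (M.inv_mem hx)) (M.inv_mem hy), ?_⟩
  rw [Units.val_mul, Units.val_mul, Units.val_mul, hxi, hyi, hX, hY]
  have e : (1 + X) * (1 + Y) * (1 - X) * (1 - Y) = 1 + (X * Y - Y * X) - X * X - Y * Y - X * Y * X + Y * X * Y
      + X * X * Y - X * (Y * Y) + X * Y * X * Y := by noncomm_ring
  rw [e, h1, h2, h3, h4]
  simp

end ring

section pure

variable {F : Type*} [Field F] {k t : ℕ} {σ : F →+* F}

theorem pureMat_zero {x : Fin t → Matrix (Fin k) (Fin k) F} (i : Fin t) (h : x i = 0) : pureMat x = 0 := by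
  ext a b
  rw [pureMat_apply, Matrix.zero_apply]
  exact Finset.prod_eq_zero (Finset.mem_univ i) (by rw [h]; rfl)

theorem pureMat_update_smul (x : Fin t → Matrix (Fin k) (Fin k) F) (i : Fin t) (c : F) (A : Matrix (Fin k) (Fin k) F) :
    pureMat (Function.update x i (c • A)) = c • pureMat (Function.update x i A) := by
  classical
  ext a b
  rw [Matrix.smul_apply, pureMat_apply, pureMat_apply, ← Finset.mul_prod_erase _ _ (Finset.mem_univ i),
    ← Finset.mul_prod_erase Finset.univ (fun j => Function.update x i A j (a j) (b j)) (Finset.mem_univ i)]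
  rw [Function.update_self, Function.update_self, Matrix.smul_apply, smul_eq_mul, smul_eq_mul, mul_assoc]
  congr 2
  apply Finset.prod_congr rfl
  intro j hj
  rw [Function.update_of_ne (Finset.ne_of_mem_erase hj), Function.update_of_ne (Finset.ne_of_mem_erase hj)]

theorem slotMat_eq (i : Fin t) (A : Matrix (Fin k) (Fin k) F) :
    slotMat i A = pureMat (Function.update (fun _ => 1) i A) := rfl

theorem slotMat_mul_pureMat (i : Fin t) (A : Matrix (Fin k) (Fin k) F) (x : Fin t → Matrix (Fin k) (Fin k) F) :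
    slotMat i A * pureMat x = pureMat (Function.update x i (A * x i)) := by
  rw [slotMat_eq, pureMat_mul]
  congr 1
  funext j
  by_cases h : j = i
  · subst h; simp
  · simp [Function.update_of_ne h]

theorem pureMat_mul_slotMat (i : Fin t) (A : Matrix (Fin k) (Fin k) F) (x : Fin t → Matrix (Fin k) (Fin k) F) :
    pureMat x * slotMat i A = pureMat (Function.update x i (x i * A)) := by
  rw [slotMat_eq, pureMat_mul]
  congr 1
  funext j
  by_cases h : j = i
  · subst h; simp
  · simp [Function.update_of_ne h]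

/-- A hyperbolic pair and a vector of norm one orthogonal to it. -/
theorem exists_triple [Finite F] (hσ : σ ≠ RingHom.id F) (hσ2 : ∀ x : F, σ (σ x) = x) (hk : 3 ≤ k) :
    ∃ u u' e : Fin k → F, stB σ k u u = 0 ∧ stB σ k u' u' = 0 ∧ stB σ k u u' = 1 ∧ stB σ k u' u = 1 ∧
      stB σ k e e = 1 ∧ stB σ k u e = 0 ∧ stB σ k e u = 0 ∧ stB σ k u' e = 0 ∧ stB σ k e u' = 0 := by
  have hS := stB_symm hσ2 k
  let e : Fin k → F := Pi.single ⟨0, by omega⟩ 1
  have hee : stB σ k e e = 1 := by
    show stB σ k (Pi.single _ 1) (Pi.single _ 1) = 1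
    rw [stB_single_left, Pi.single_eq_same]
  have hdim := finrank_perp_one (B := stB σ k) e
  rw [finrank_fin_fun] at hdim
  obtain ⟨u, hu, hu0, huu⟩ := exists_isotropic (B := stB σ k) hσ hσ2 hS (perp (stB σ k) {e}) (by omega)
  have heu : stB σ k e u = 0 := hu e rfl
  have hue : stB σ k u e = 0 := symm_zero hS heu
  obtain ⟨z, hz⟩ : ∃ z, stB σ k u z ≠ 0 := by
    by_contra h
    push Not at h
    exact hu0 (stB_sepLeft k u h)
  have hz' : stB σ k u (z - stB σ k e z • e) ≠ 0 := by
    rw [map_sub, map_smul, hue, smul_zero, sub_zero]; exact hz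
  have hez : stB σ k e (z - stB σ k e z • e) = 0 := by
    rw [map_sub, map_smul, hee, smul_eq_mul, mul_one, sub_self]
  obtain ⟨c, d, h1, h2⟩ := exists_partner hσ hσ2 hS huu hz'
  have h3 : stB σ k e (c • (z - stB σ k e z • e) + d • u) = 0 := by
    rw [map_add, map_smul, map_smul, hez, heu, smul_zero, smul_zero, add_zero]
  exact ⟨u, _, e, huu, h2, h1, by rw [← hS.eq, h1, map_one], hee, hue, heu, symm_zero hS h3, h3⟩

theorem exists_norm [Finite F] (hσ : σ ≠ RingHom.id F) (hσ2 : ∀ x : F, σ (σ x) = x) {ρ : F} (hρ : σ ρ = ρ) :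
    ∃ ν : F, σ ν * ν = ρ := by
  by_cases h : ρ = 0
  · exact ⟨0, by rw [mul_zero, h]⟩
  · obtain ⟨c, -, hc⟩ := HermWitt.norm_surj σ hσ hσ2 ρ hρ h
    exact ⟨c, by rw [← hc, mul_comm]⟩

/-- Moving an isotropic vector in a slot. -/
theorem move_slot [Finite F] (hσ : σ ≠ RingHom.id F) (hσ2 : ∀ x : F, σ (σ x) = x) (hk : 3 ≤ k)
    {M : Subgroup (Matrix.GeneralLinearGroup (Fin t → Fin k) F)} (hM : OverT σ M) {c : F}
    {x : Fin t → Matrix (Fin k) (Fin k) F} {i : Fin t} {u v : Fin k → F} (hx : x i = ee σ u u)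
    (hu : u ≠ 0) (huu : stB σ k u u = 0) (hv : v ≠ 0) (hvv : stB σ k v v = 0) (h : In M (c • pureMat x)) :
    In M (c • pureMat (Function.update x i (ee σ v v))) := by
  obtain ⟨z, hz, hzd, hzu⟩ := exists_su hσ hσ2 hk hu hv (by rw [huu, hvv])
  set A := LinearMap.toMatrix' (z : (Fin k → F) →ₗ[F] (Fin k → F)) with hAdef
  have hAv : ∀ w, A *ᵥ w = z w := fun w => by
    rw [hAdef, LinearMap.toMatrix'_mulVec]; rfl
  have hA : (A.map σ)ᵀ * A = 1 := by
    ext j l
    have h := hz (Pi.single j 1) (Pi.single l 1)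
    rw [stB_single_left, stB_apply] at h
    rw [Matrix.mul_apply]
    have h1 : ∀ i, (A.map σ)ᵀ j i * A i l = σ (z (Pi.single j 1) i) * z (Pi.single l 1) i := by
      intro i
      rw [Matrix.transpose_apply, Matrix.map_apply]
      rfl
    rw [Finset.sum_congr rfl fun i _ => h1 i, h, Matrix.one_apply, Pi.single_apply]
  have hdet : A.det = 1 := by rw [hAdef, LinearMap.det_toMatrix']; exact hzd
  obtain ⟨g, hg, hgA⟩ := hM.slot i A hA hdet
  have hginv : ((g⁻¹ : Matrix.GeneralLinearGroup (Fin t → Fin k) F) : Matrix (Fin t → Fin k) (Fin t → Fin k) F) =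
      slotMat i (A.map σ)ᵀ := by
    have e : slotMat i (A.map σ)ᵀ * (g : Matrix (Fin t → Fin k) (Fin t → Fin k) F) = 1 := by
      rw [hgA, slotMat_eq, slotMat_eq, pureMat_mul, ← pureMat_one]
      congr 1
      funext j
      by_cases h : j = i
      · subst h; simp [hA]
      · simp [Function.update_of_ne h]
    calc ((g⁻¹ : Matrix.GeneralLinearGroup (Fin t → Fin k) F) : Matrix (Fin t → Fin k) (Fin t → Fin k) F)
        = (slotMat i (A.map σ)ᵀ * (g : Matrix (Fin t → Fin k) (Fin t → Fin k) F)) *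
            ((g⁻¹ : Matrix.GeneralLinearGroup (Fin t → Fin k) F) : Matrix (Fin t → Fin k) (Fin t → Fin k) F) := by
          rw [e, one_mul]
      _ = _ := by rw [mul_assoc, Units.mul_inv, mul_one]
  have h2 := h.conj hg
  rw [hgA, hginv, mul_smul_comm, smul_mul_assoc, slotMat_mul_pureMat, pureMat_mul_slotMat, Function.update_self,
    Function.update_idem, hx] at h2
  have h3 : A * ee σ u u * (A.map σ)ᵀ = ee σ v v := by
    unfold ee
    rw [Matrix.mul_vecMulVec, Matrix.vecMulVec_mul, hAv, hzu, Matrix.vecMul_transpose]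
    congr 1
    have : (A.map σ) *ᵥ (σ ∘ u) = σ ∘ (A *ᵥ u) := by
      funext j
      simp only [Matrix.mulVec, dotProduct, Function.comp, Matrix.map_apply, map_sum, map_mul]
    rw [this, hAv, hzu]
  rwa [h3] at h2

/-- Permuting the slots. -/
theorem move_perm {M : Subgroup (Matrix.GeneralLinearGroup (Fin t → Fin k) F)} (hM : OverT σ M) {c : F}
    {x : Fin t → Matrix (Fin k) (Fin k) F} (π : Equiv.Perm (Fin t)) (hπ : Equiv.Perm.sign π = 1)
    (h : In M (c • pureMat x)) : In M (c • pureMat (fun i => x (π.symm i))) := by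
  have h2 := h.conj (hM.perm π hπ)
  rwa [mul_smul_comm, smul_mul_assoc, facPerm_conj] at h2

end pure

section step

variable {F : Type*} [Field F] {k s : ℕ} {σ : F →+* F}

/-- The intermediate operators. -/
def mid (σ : F →+* F) (i b : Fin (s + 1)) (I J : Finset (Fin (s + 1))) (v : Fin (s + 1) → Fin k → F) (u' : Fin k → F)
    (P : Matrix (Fin k) (Fin k) F) (j : Fin (s + 1)) : Matrix (Fin k) (Fin k) F :=
  if j = i then 1 else if j ∈ J then ee σ (v j) (v j) else if j ∈ I then P else if j = b then ee σ u' u' else 1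

theorem mid_update (i b : Fin (s + 1)) {I J : Finset (Fin (s + 1))} (v : Fin (s + 1) → Fin k → F) (u' : Fin k → F)
    (P : Matrix (Fin k) (Fin k) F) {m : Fin (s + 1)} (hmi : m ≠ i) :
    Function.update (mid σ i b I J v u' P) m (ee σ (v m) (v m)) = mid σ i b I (insert m J) v u' P := by
  funext j
  by_cases hj : j = m
  · subst hj
    rw [Function.update_self, mid, if_neg hmi, if_pos (Finset.mem_insert_self _ _)]
  · rw [Function.update_of_ne hj, mid, mid]
    have : j ∈ insert m J ↔ j ∈ J := by rw [Finset.mem_insert]; exact ⟨fun h => h.resolve_left hj, Or.inr⟩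
    simp only [this]

variable [Finite F] {M : Subgroup (Matrix.GeneralLinearGroup (Fin (s + 1) → Fin k) F)}

/-- One slot of the intersection. -/
theorem mid_step (hσ : σ ≠ RingHom.id F) (hσ2 : ∀ x : F, σ (σ x) = x) (hk : 3 ≤ k)
    (hqk : 4 ≤ k ∨ ∃ c : F, c ≠ 0 ∧ σ c * c ≠ 1) (hM : OverT σ M) {i b : Fin (s + 1)} {I J : Finset (Fin (s + 1))}
    {v : Fin (s + 1) → Fin k → F} {u u' e : Fin k → F} (huu : stB σ k u u = 0) (hu'u' : stB σ k u' u' = 0)
    (huu' : stB σ k u u' = 1) (hu'u : stB σ k u' u = 1) (hee : stB σ k e e = 1) (hue : stB σ k u e = 0)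
    (heu : stB σ k e u = 0) (hu'e : stB σ k u' e = 0) (heu' : stB σ k e u' = 0)
    {m : Fin (s + 1)} (hmi : m ≠ i) (hmI : m ∈ I) (hmJ : m ∉ J) (hv0 : v m ≠ 0) (hv : stB σ k (v m) (v m) = 0)
    {α β : F} (r : F)
    (h : KI M σ i u (α • pureMat (mid σ i b I J v u' (ee σ u u')) - β • pureMat (mid σ i b I J v u' (ee σ u' u)))) :
    KI M σ i u ((α * r) • pureMat (mid σ i b I (insert m J) v u' (ee σ u u')) -
      (β * σ r) • pureMat (mid σ i b I (insert m J) v u' (ee σ u' u))) := by
  have hu0 : u ≠ 0 := by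
    rintro rfl
    rw [map_zero, LinearMap.zero_apply] at huu'
    exact zero_ne_one huu'
  obtain ⟨ν, hν⟩ := exists_norm hσ hσ2 (ρ := -(r + σ r)) (by rw [map_neg, map_add, hσ2, add_comm])
  set w : Fin k → F := r • u + u' + ν • e with hw
  have h1 : stB σ k w u = 1 := by
    rw [hw]
    simp only [map_add, LinearMap.add_apply, LinearMap.map_smulₛₗ₂, huu, hu'u, heu, smul_eq_mul]
    ring
  have h2 : stB σ k u' w = r := by
    rw [hw]
    simp only [map_add, map_smul, hu'u, hu'u', hu'e, smul_eq_mul]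
    ring
  have h3 : stB σ k w u' = σ r := by
    rw [hw]
    simp only [map_add, LinearMap.add_apply, LinearMap.map_smulₛₗ₂, huu', hu'u', heu', smul_eq_mul]
    ring
  have h4 : stB σ k u w = 1 := by
    rw [hw]
    simp only [map_add, map_smul, huu, huu', hue, smul_eq_mul]
    ring
  have h5 : stB σ k w w = 0 := by
    rw [hw]
    simp only [map_add, LinearMap.add_apply, LinearMap.map_smulₛₗ₂, map_smul, smul_eq_mul, huu, huu', hue, hu'u,
      hu'u', hu'e, heu, heu', hee]
    linear_combination hν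
  have hw0 : w ≠ 0 := by
    intro h0
    rw [h0, map_zero, LinearMap.zero_apply] at h1
    exact zero_ne_one h1
  have h6 := h.step hσ hσ2 hk hqk hM hmi hu0 huu hw0 h5 hv0 hv
  have hmid : ∀ P, mid σ i b I J v u' P m = P := by
    intro P
    rw [mid, if_neg hmi, if_neg hmJ, if_pos hmI]
  have key : ∀ P : Matrix (Fin k) (Fin k) F, ∀ c : F, ee σ (v m) w * P * ee σ w (v m) = c • ee σ (v m) (v m) →
      slotMat m (ee σ (v m) w) * pureMat (mid σ i b I J v u' P) * slotMat m (ee σ w (v m)) =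
        c • pureMat (mid σ i b I (insert m J) v u' P) := by
    intro P c hP
    rw [slotMat_mul_pureMat, pureMat_mul_slotMat, Function.update_self, Function.update_idem, hmid, hP,
      pureMat_update_smul, mid_update i b v u' P hmi]
  have e1 : ee σ (v m) w * ee σ u u' * ee σ w (v m) = r • ee σ (v m) (v m) := by
    rw [ee_mul, Matrix.smul_mul, ee_mul, h1, h2, one_smul]
  have e2 : ee σ (v m) w * ee σ u' u * ee σ w (v m) = σ r • ee σ (v m) (v m) := by
    rw [ee_mul, Matrix.smul_mul, ee_mul, h3, h4, one_smul]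
  have e3 : slotMat m (ee σ (v m) w) * (α • pureMat (mid σ i b I J v u' (ee σ u u')) -
      β • pureMat (mid σ i b I J v u' (ee σ u' u))) * slotMat m (ee σ w (v m)) =
      (α * r) • pureMat (mid σ i b I (insert m J) v u' (ee σ u u')) -
        (β * σ r) • pureMat (mid σ i b I (insert m J) v u' (ee σ u' u)) := by
    rw [mul_sub, sub_mul, Matrix.mul_smul, Matrix.mul_smul, Matrix.smul_mul, Matrix.smul_mul, key _ _ e1, key _ _ e2,
      smul_smul, smul_smul]
  rwa [e3] at h6

/-- **Growth of the support.** -/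
theorem grow (hσ : σ ≠ RingHom.id F) (hσ2 : ∀ x : F, σ (σ x) = x) (hk : 3 ≤ k)
    (hqk : 4 ≤ k ∨ ∃ c : F, c ≠ 0 ∧ σ c * c ≠ 1) (hM : OverT σ M) {S : Finset (Fin (s + 1))} (hS2 : 2 ≤ S.card)
    (h : PureS σ M S) {b : Fin (s + 1)} (hb : b ∉ S) : PureS σ M (insert b S) := by
  classical
  obtain ⟨c, hc0, h⟩ := h
  obtain ⟨i, hi⟩ : S.Nonempty := Finset.card_pos.1 (by omega)
  set I := S.erase i with hI
  have hIc : 1 ≤ I.card := by rw [hI, Finset.card_erase_of_mem hi]; omega
  obtain ⟨m₀, hm₀⟩ : I.Nonempty := Finset.card_pos.1 hIc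
  have hm₀i : m₀ ≠ i := Finset.ne_of_mem_erase hm₀
  have hbi : b ≠ i := fun h => hb (h ▸ hi)
  have hbI : b ∉ I := fun h => hb (Finset.mem_of_mem_erase h)
  have hiI : i ∉ I := Finset.notMem_erase i S
  obtain ⟨u, u', e, huu, hu'u', huu', hu'u, hee, hue, heu, hu'e, heu'⟩ := exists_triple (k := k) hσ hσ2 hk
  have hu0 : u ≠ 0 := by
    rintro rfl
    rw [map_zero, LinearMap.zero_apply] at huu'
    exact zero_ne_one huu'
  have hu'0 : u' ≠ 0 := by
    rintro rfl
    rw [map_zero] at huu'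
    exact zero_ne_one huu'
  -- the first element
  set X := c • pureMat (fun j => if j ∈ S then ee σ u u else 1) with hX
  have hXin : In M X := h (fun _ => u) (fun j _ => ⟨hu0, huu⟩)
  -- the second element
  let π : Equiv.Perm (Fin (s + 1)) := Equiv.swap i b * Equiv.swap m₀ i
  have hπ : Equiv.Perm.sign π = 1 := by
    rw [Equiv.Perm.sign_mul, Equiv.Perm.sign_swap (Ne.symm hbi), Equiv.Perm.sign_swap hm₀i]
    norm_num
  have hm₀b : m₀ ≠ b := fun h => hbI (h ▸ hm₀)
  set Y := c • pureMat (fun j => if j = i then 1 else if j ∈ I ∨ j = b then ee σ u' u' else 1) with hY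
  have hYin : In M Y := by
    have h1 : In M (c • pureMat (fun j => if j ∈ S then ee σ u' u' else 1)) := h (fun _ => u') (fun j _ => ⟨hu'0, hu'u'⟩)
    have h2 := move_perm hM π hπ h1
    have h3 : (fun j => if π.symm j ∈ S then ee σ u' u' else (1 : Matrix (Fin k) (Fin k) F)) =
        fun j => if j = i then 1 else if j ∈ I ∨ j = b then ee σ u' u' else 1 := by
      funext j
      have hπs : π.symm j = Equiv.swap m₀ i (Equiv.swap i b j) := rfl
      rw [hπs]
      by_cases hji : j = i
      · subst hji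
        rw [Equiv.swap_apply_left, Equiv.swap_apply_of_ne_of_ne (Ne.symm hm₀b) hbi, if_neg hb, if_pos rfl]
      by_cases hjb : j = b
      · subst hjb
        rw [Equiv.swap_apply_right, Equiv.swap_apply_right, if_pos (Finset.mem_of_mem_erase hm₀), if_neg hji,
          if_pos (Or.inr rfl)]
      rw [Equiv.swap_apply_of_ne_of_ne hji hjb]
      by_cases hjm : j = m₀
      · subst hjm
        rw [Equiv.swap_apply_left, if_pos hi, if_neg hji, if_pos (Or.inl hm₀)]
      rw [Equiv.swap_apply_of_ne_of_ne hjm hji, if_neg hji]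
      have : j ∈ S ↔ j ∈ I ∨ j = b := by
        rw [hI, Finset.mem_erase]
        constructor
        · exact fun h => Or.inl ⟨hji, h⟩
        · rintro (h | h)
          · exact h.2
          · exact absurd h hjb
      simp only [this]
    rw [h3] at h2
    exact h2
  -- products
  have hmul : ∀ x y : Fin (s + 1) → Matrix (Fin k) (Fin k) F, (c • pureMat x) * (c • pureMat y) =
      (c * c) • pureMat (fun j => x j * y j) := by
    intro x y
    rw [Matrix.smul_mul, Matrix.mul_smul, smul_smul, pureMat_mul]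
  have h0 : ee σ u u * ee σ u u = 0 := by rw [ee_mul, huu, zero_smul]
  have h0' : ee σ u' u' * ee σ u' u' = 0 := by rw [ee_mul, hu'u', zero_smul]
  have hXX : X * X = 0 := by
    rw [hX, hmul, pureMat_zero i (by rw [if_pos hi, h0]), smul_zero]
  have hYY : Y * Y = 0 := by
    rw [hY, hmul, pureMat_zero b (by rw [if_neg hbi, if_pos (Or.inr rfl), h0']), smul_zero]
  have hXYX : X * Y * X = 0 := by
    rw [hX, hY, hmul, Matrix.smul_mul, Matrix.mul_smul, pureMat_mul,
      pureMat_zero i (by rw [if_pos hi, if_pos rfl, mul_one, h0]), smul_zero, smul_zero]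
  have hYXY : Y * X * Y = 0 := by
    rw [hX, hY, hmul, Matrix.smul_mul, Matrix.mul_smul, pureMat_mul,
      pureMat_zero b (by rw [if_neg hbi, if_pos (Or.inr rfl), if_neg hb, mul_one, h0']), smul_zero, smul_zero]
  have hC := hXin.comm hYin hXX hYY hXYX hYXY
  obtain ⟨r, hr⟩ := exists_fix_ne hσ
  refine ⟨c * c * (r - σ r), mul_ne_zero (mul_ne_zero hc0 hc0) (sub_ne_zero.2 (Ne.symm hr)), fun v hv => ?_⟩
  have hvS : ∀ j ∈ S, v j ≠ 0 ∧ stB σ k (v j) (v j) = 0 := fun j hj => hv j (Finset.mem_insert_of_mem hj)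
  have hvb := hv b (Finset.mem_insert_self _ _)
  have hcomm : ∀ (x : Fin (s + 1) → Matrix (Fin k) (Fin k) F), x i = 1 → ∀ A,
      pureMat x * slotMat i A = slotMat i A * pureMat x := by
    intro x hx A
    rw [pureMat_mul_slotMat, slotMat_mul_pureMat, hx, mul_one, one_mul]
  have hmid1 : ∀ J P, mid σ i b I J v u' P i = 1 := fun J P => by rw [mid, if_pos rfl]
  -- the start
  have hXY : X * Y = ((c * c) • pureMat (mid σ i b I ∅ v u' (ee σ u u'))) * slotMat i (ee σ u u) := by
    rw [hX, hY, hmul, Matrix.smul_mul, pureMat_mul_slotMat]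
    congr 2
    funext j
    by_cases hji : j = i
    · subst hji
      rw [Function.update_self, hmid1, if_pos hi, if_pos rfl, one_mul, mul_one]
    · rw [Function.update_of_ne hji, mid, if_neg hji, if_neg hji, if_neg (Finset.notMem_empty _)]
      by_cases hjI : j ∈ I
      · rw [if_pos hjI, if_pos (Or.inl hjI), if_pos (Finset.mem_of_mem_erase hjI), ee_mul, huu', one_smul]
      · have hjS : j ∉ S := fun h => hjI (Finset.mem_erase.2 ⟨hji, h⟩)
        rw [if_neg hjI, if_neg hjS, one_mul]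
        by_cases hjb : j = b
        · rw [if_pos (Or.inr hjb), if_pos hjb]
        · rw [if_neg (by tauto), if_neg hjb]
  have hYX : Y * X = ((c * c) • pureMat (mid σ i b I ∅ v u' (ee σ u' u))) * slotMat i (ee σ u u) := by
    rw [hX, hY, hmul, Matrix.smul_mul, pureMat_mul_slotMat]
    congr 2
    funext j
    by_cases hji : j = i
    · subst hji
      rw [Function.update_self, hmid1, if_pos hi, if_pos rfl, one_mul]
    · rw [Function.update_of_ne hji, mid, if_neg hji, if_neg hji, if_neg (Finset.notMem_empty _)]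
      by_cases hjI : j ∈ I
      · rw [if_pos hjI, if_pos (Or.inl hjI), if_pos (Finset.mem_of_mem_erase hjI), ee_mul, hu'u, one_smul]
      · have hjS : j ∉ S := fun h => hjI (Finset.mem_erase.2 ⟨hji, h⟩)
        rw [if_neg hjI, if_neg hjS, mul_one]
        by_cases hjb : j = b
        · rw [if_pos (Or.inr hjb), if_pos hjb]
        · rw [if_neg (by tauto), if_neg hjb]
  have hstart : KI M σ i u ((c * c) • pureMat (mid σ i b I ∅ v u' (ee σ u u')) -
      (c * c) • pureMat (mid σ i b I ∅ v u' (ee σ u' u))) := by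
    refine ⟨fun A => ?_, ?_⟩
    · rw [sub_mul, mul_sub, Matrix.smul_mul, Matrix.smul_mul, Matrix.mul_smul, Matrix.mul_smul,
        hcomm _ (hmid1 _ _), hcomm _ (hmid1 _ _)]
    · obtain ⟨g, hg, hgC⟩ := hC
      exact ⟨g, hg, by rw [hgC, hXY, hYX, sub_mul]⟩
  -- all slots but `m₀`
  have hstep : ∀ J : Finset (Fin (s + 1)), J ⊆ I.erase m₀ →
      KI M σ i u ((c * c) • pureMat (mid σ i b I J v u' (ee σ u u')) -
        (c * c) • pureMat (mid σ i b I J v u' (ee σ u' u))) := by
    intro J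
    induction J using Finset.induction_on with
    | empty => intro _; exact hstart
    | insert m J hmJ ih =>
      intro hJ
      have hmI' : m ∈ I.erase m₀ := hJ (Finset.mem_insert_self _ _)
      have hmI : m ∈ I := Finset.mem_of_mem_erase hmI'
      have hmi : m ≠ i := fun h => hiI (h ▸ hmI)
      have h1 := ih (fun j hj => hJ (Finset.mem_insert_of_mem hj))
      obtain ⟨h2, h3⟩ := hvS m (Finset.mem_of_mem_erase hmI)
      have h4 := mid_step hσ hσ2 hk hqk hM huu hu'u' huu' hu'u hee hue heu hu'e heu' hmi hmI hmJ h2 h3 1 h1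
      rwa [map_one, mul_one] at h4
  have h1 := hstep _ subset_rfl
  obtain ⟨h2, h3⟩ := hvS m₀ (Finset.mem_of_mem_erase hm₀)
  have h4 := mid_step hσ hσ2 hk hqk hM huu hu'u' huu' hu'u hee hue heu hu'e heu' hm₀i hm₀ (Finset.notMem_erase _ _)
    h2 h3 r h1
  rw [Finset.insert_erase hm₀] at h4
  have hsame : ∀ P P' : Matrix (Fin k) (Fin k) F, mid σ i b I I v u' P = mid σ i b I I v u' P' := by
    intro P P'
    funext j
    rw [mid, mid]
    by_cases hjI : j ∈ I
    · rw [if_pos hjI, if_pos hjI]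
    · rw [if_neg hjI, if_neg hjI, if_neg hjI, if_neg hjI]
  rw [hsame _ 1, hsame (ee σ u' u) 1, ← sub_smul] at h4
  -- the slot `b`
  have h5 := h4.step hσ hσ2 hk hqk hM hbi hu0 huu hu0 huu hvb.1 hvb.2
  have hmidb : mid σ i b I I v u' 1 b = ee σ u' u' := by
    rw [mid, if_neg hbi, if_neg hbI, if_neg hbI, if_pos rfl]
  have hb1 : ee σ (v b) u * ee σ u' u' * ee σ u (v b) = ee σ (v b) (v b) := by
    rw [ee_mul, Matrix.smul_mul, ee_mul, huu', hu'u, one_smul, one_smul]
  rw [Matrix.mul_smul, Matrix.smul_mul, slotMat_mul_pureMat, pureMat_mul_slotMat, Function.update_self,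
    Function.update_idem, hmidb, hb1] at h5
  obtain ⟨-, h6⟩ := h5
  have h7 : In M ((c * c * (r - σ r)) • pureMat (Function.update (Function.update (mid σ i b I I v u' 1) b
      (ee σ (v b) (v b))) i (ee σ u u))) := by
    obtain ⟨g, hg, hgK⟩ := h6
    refine ⟨g, hg, ?_⟩
    rw [hgK, Matrix.smul_mul, pureMat_mul_slotMat, Function.update_of_ne (Ne.symm hbi), hmid1, one_mul]
    congr 2
    ring
  have h8 := move_slot hσ hσ2 hk hM (i := i) (u := u) (v := v i) (Function.update_self _ _ _) hu0 huu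
    (hvS i hi).1 (hvS i hi).2 h7
  obtain ⟨g, hg, hgK⟩ := h8
  refine ⟨g, hg, ?_⟩
  rw [hgK]
  congr 3
  funext j
  by_cases hji : j = i
  · subst hji
    rw [Function.update_self, if_pos (Finset.mem_insert_of_mem hi)]
  rw [Function.update_of_ne hji, Function.update_of_ne hji]
  by_cases hjb : j = b
  · subst hjb
    rw [Function.update_self, if_pos (Finset.mem_insert_self _ _)]
  rw [Function.update_of_ne hjb, mid, if_neg hji]
  by_cases hjI : j ∈ I
  · rw [if_pos hjI, if_pos (Finset.mem_insert_of_mem (Finset.mem_of_mem_erase hjI))]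
  · have hjS : j ∉ insert b S := by
      rw [Finset.mem_insert]
      rintro (h | h)
      · exact hjb h
      · exact hjI (Finset.mem_erase.2 ⟨hji, h⟩)
    rw [if_neg hjI, if_neg hjI, if_neg hjb, if_neg hjS]

/-- The support can be taken to be everything. -/
theorem pureS_univ (hσ : σ ≠ RingHom.id F) (hσ2 : ∀ x : F, σ (σ x) = x) (hk : 3 ≤ k)
    (hqk : 4 ≤ k ∨ ∃ c : F, c ≠ 0 ∧ σ c * c ≠ 1) (hM : OverT σ M) {S : Finset (Fin (s + 1))} (hS2 : 2 ≤ S.card)
    (h : PureS σ M S) : PureS σ M Finset.univ := by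
  classical
  by_cases hS : S = Finset.univ
  · rwa [← hS]
  obtain ⟨b, hb⟩ : ∃ b, b ∉ S := by
    by_contra hcon
    push Not at hcon
    exact hS (Finset.eq_univ_iff_forall.2 hcon)
  have h1 := grow hσ hσ2 hk hqk hM hS2 h hb
  have h2 : (insert b S).card = S.card + 1 := Finset.card_insert_of_notMem hb
  exact pureS_univ hσ hσ2 hk hqk hM (by omega) h1
termination_by Fintype.card (Fin (s + 1)) - S.card
decreasing_by
  have h3 : (insert b S).card ≤ Fintype.card (Fin (s + 1)) := Finset.card_le_univ _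
  omega

/-- **(A1c)** From the full support to `PureT`. -/
theorem pureT_of_univ (hσ : σ ≠ RingHom.id F) (hσ2 : ∀ x : F, σ (σ x) = x) (hk : 3 ≤ k)
    (hM : OverT σ M) (h : PureS σ M Finset.univ) : PureT σ M := by
  classical
  obtain ⟨c, hc0, h⟩ := h
  -- `pureMat` of rank one operators
  have hpure : ∀ v : Fin (s + 1) → Fin k → F, pureMat (fun j => if j ∈ Finset.univ then ee σ (v j) (v j) else 1) =
      vecMulVec (pvec v) (σ ∘ pvec v) := by
    intro v
    ext f g
    rw [pureMat_apply, vecMulVec_apply]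
    simp only [Finset.mem_univ, if_true, ee, vecMulVec_apply, pvec, Function.comp_apply, Finset.prod_mul_distrib,
      map_prod]
  -- `c` is skew
  obtain ⟨u, u', e, huu, -, huu', -⟩ := exists_triple (k := k) hσ hσ2 hk
  have hu0 : u ≠ 0 := by
    rintro rfl
    rw [map_zero, LinearMap.zero_apply] at huu'
    exact zero_ne_one huu'
  have hskew : c + σ c = 0 := by
    obtain ⟨g, hg, hgc⟩ := h (fun _ => u) (fun _ _ => ⟨hu0, huu⟩)
    set X := pureMat (fun j : Fin (s + 1) => if j ∈ Finset.univ then ee σ u u else 1) with hXdef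
    have hXX : X * X = 0 := by
      rw [hXdef, pureMat_mul]
      exact pureMat_zero 0 (by rw [if_pos (Finset.mem_univ _), ee_mul, huu, zero_smul])
    have hXv : X = vecMulVec (pvec fun _ => u) (σ ∘ pvec fun _ => u) := hpure fun _ => u
    have hXt : (X.map σ)ᵀ = X := by
      rw [hXv]
      ext a b
      rw [Matrix.transpose_apply, Matrix.map_apply, vecMulVec_apply, vecMulVec_apply, Function.comp_apply,
        Function.comp_apply, map_mul, hσ2, mul_comm]
    have h1 := hM.iso g hg
    rw [hgc] at h1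
    have h2 : ((1 + c • X : Matrix (Fin (s + 1) → Fin k) (Fin (s + 1) → Fin k) F).map σ)ᵀ = 1 + σ c • X := by
      rw [Matrix.map_add _ (map_add σ), Matrix.map_one _ (map_zero σ) (map_one σ), Matrix.transpose_add,
        Matrix.transpose_one, Matrix.map_smul' σ c X (map_mul σ), Matrix.transpose_smul, hXt]
    rw [h2] at h1
    have h3 : (c + σ c) • X = 0 := by
      have e1 : (1 + σ c • X) * (1 + c • X) = 1 + (c + σ c) • X + (σ c * c) • (X * X) := by
        rw [mul_add, add_mul, add_mul, Matrix.smul_mul, Matrix.mul_smul, Matrix.smul_mul, Matrix.mul_smul, smul_smul,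
          one_mul, mul_one, one_mul, add_smul]
        abel
      rw [e1, hXX, smul_zero, add_zero] at h1
      exact add_eq_left.1 h1
    rcases smul_eq_zero.1 h3 with h4 | h4
    · exact h4
    · exfalso
      obtain ⟨j, hj⟩ : ∃ j, u j ≠ 0 := by
        by_contra hcon
        push Not at hcon
        exact hu0 (funext hcon)
      have h5 := congrFun (congrFun h4 (fun _ => j)) (fun _ => j)
      rw [hXv, vecMulVec_apply, Matrix.zero_apply, Function.comp_apply] at h5
      have h6 : (pvec fun _ : Fin (s + 1) => u) (fun _ => j) ≠ 0 := by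
        unfold pvec
        exact Finset.prod_ne_zero_iff.2 fun _ _ => hj
      rcases mul_eq_zero.1 h5 with h7 | h7
      · exact h6 h7
      · exact h6 ((map_eq_zero σ).1 h7)
  intro w hw l hl
  by_cases hz : ∃ i, w i = 0
  · obtain ⟨i, hi⟩ := hz
    have h0 : pvec w = 0 := by
      funext f
      exact Finset.prod_eq_zero (Finset.mem_univ i) (by rw [hi]; rfl)
    refine ⟨1, M.one_mem, ?_⟩
    rw [h0]
    ext a b
    simp
  push Not at hz
  have hwst : ∀ i, stB σ k (w i) (w i) = 0 := fun i => hw i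
  -- scaling in one slot
  have hρ : σ (l / c) = l / c := by
    rw [map_div₀]
    have e1 : σ l = -l := by linear_combination hl
    have e2 : σ c = -c := by linear_combination hskew
    rw [e1, e2, neg_div_neg_eq]
  by_cases hl0 : l = 0
  · subst hl0
    refine ⟨1, M.one_mem, ?_⟩
    rw [zero_smul, add_zero, Units.val_one]
  obtain ⟨d, hd0, hd⟩ := HermWitt.norm_surj σ hσ hσ2 (l / c) hρ (div_ne_zero hl0 hc0)
  obtain ⟨g, hg, hgc⟩ := h (Function.update w 0 (d • w 0)) (fun i _ => by
    by_cases hi : i = 0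
    · subst hi
      rw [Function.update_self]
      refine ⟨smul_ne_zero hd0 (hz 0), ?_⟩
      rw [LinearMap.map_smulₛₗ₂, map_smul, hwst, smul_zero, smul_zero]
    · rw [Function.update_of_ne hi]
      exact ⟨hz i, hwst i⟩)
  refine ⟨g, hg, ?_⟩
  rw [hgc, hpure]
  have h1 : pvec (Function.update w 0 (d • w 0)) = d • pvec w := by
    funext f
    rw [Pi.smul_apply, smul_eq_mul]
    unfold pvec
    rw [← Finset.mul_prod_erase _ _ (Finset.mem_univ (0 : Fin (s + 1))),
      ← Finset.mul_prod_erase Finset.univ (fun i => w i (f i)) (Finset.mem_univ (0 : Fin (s + 1))),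
      Function.update_self, Pi.smul_apply, smul_eq_mul, mul_assoc]
    congr 2
    apply Finset.prod_congr rfl
    intro j hj
    rw [Function.update_of_ne (Finset.ne_of_mem_erase hj)]
  rw [h1]
  ext a b
  rw [Matrix.add_apply, Matrix.add_apply, Matrix.smul_apply, Matrix.smul_apply, vecMulVec_apply, vecMulVec_apply,
    Function.comp_apply, Function.comp_apply, Pi.smul_apply, Pi.smul_apply, smul_eq_mul, smul_eq_mul, smul_eq_mul,
    smul_eq_mul, map_mul]
  have h2 : c * (d * σ d) = l := by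
    rw [hd]
    field_simp
  linear_combination (pvec w a * σ (pvec w b)) * h2

/-- **(A1b) + (A1c)** -/
theorem pureT_of_pureS (hσ : σ ≠ RingHom.id F) (hσ2 : ∀ x : F, σ (σ x) = x) (hk : 3 ≤ k)
    (hqk : 4 ≤ k ∨ ∃ c : F, c ≠ 0 ∧ σ c * c ≠ 1) (hM : OverT σ M) {S : Finset (Fin (s + 1))} (hS : 2 ≤ S.card)
    (h : PureS σ M S) : PureT σ M :=
  pureT_of_univ hσ hσ2 hk hM (pureS_univ hσ hσ2 hk hqk hM hS h)

end step

end Cfsg.Agent.H891.C7
end

-- part: H881/Final
section
/-!
Maximality of the tensor-wreath stabilisers in `SU_n(q)`, `n = k ^ t`, `k ≥ 3`, `t ≥ 2`, `(q, k) ≠ (2, 3)`.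
-/

set_option autoImplicit false
set_option linter.unusedSectionVars false

namespace Cfsg.Agent.H881

open Module Matrix Cfsg.Agent.ClassicalGeometry Cfsg.Agent.H880 Cfsg.Agent.H919 Cfsg.Geo
open Cfsg.Agent.LieClassical.HermBasic

/-- **Part A.** -/
theorem partA {F : Type*} [Field F] [Finite F] {σ : F →+* F} {k s : ℕ} (hσ : σ ≠ RingHom.id F)
    (hσ2 : ∀ x : F, σ (σ x) = x) (hk : 3 ≤ k) (hs : 1 ≤ s) (hqk : 4 ≤ k ∨ ∃ c : F, c ≠ 0 ∧ σ c * c ≠ 1)
    {M : Subgroup (Matrix.GeneralLinearGroup (Fin (s + 1) → Fin k) F)} (hM : OverT σ M) : LayerT σ M ∨ TransvT σ M := by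
  rcases partA_first hσ hσ2 hk hqk hM with h | ⟨S, hS, h⟩
  · exact Or.inl h
  · exact Or.inr (H594.TensGen.transvT_of_pureT hσ hσ2 hk hs hqk hM
      (H891.C7.pureT_of_pureS hσ hσ2 hk hqk hM hS h))

/-- `4 ≤ k` or `q ≥ 3`. -/
theorem hqk_of {F : Type*} [Field F] [Fintype F] {q : ℕ} (hF : Fintype.card F = q ^ 2) {k : ℕ} (hk : 3 ≤ k)
    (hex : ¬ (q = 2 ∧ k = 3)) :
    4 ≤ k ∨ ∃ c : F, c ≠ 0 ∧ ((conj hF : F ≃+* F) : F →+* F) c * c ≠ 1 := by
  set σ : F →+* F := ((conj hF : F ≃+* F) : F →+* F) with hσ_def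
  have hσx : ∀ x, σ x = x ^ q := fun x => rfl
  have hσ : σ ≠ RingHom.id F := by
    intro h
    obtain ⟨x, hx⟩ := exists_not_fixed hF
    exact hx (by rw [← hσx, h]; rfl)
  have hσ2 : ∀ x, σ (σ x) = x := fun x => by rw [hσx, hσx, pow_q_pow_q hF]
  by_cases h4 : 4 ≤ k
  · exact Or.inl h4
  · right
    have hq3 : 3 ≤ q := by
      have := two_le hF
      by_contra hlt
      exact hex ⟨by omega, by omega⟩
    by_contra hcon
    push Not at hcon
    have hcard := card_fixed hF
    have hle : Nat.card {x : F // x ^ q = x} ≤ 2 := by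
      classical
      have hsub : ∀ x : {x : F // x ^ q = x}, (x : F) = 0 ∨ (x : F) = 1 := by
        intro x
        by_cases h0 : (x : F) = 0
        · exact Or.inl h0
        · right
          obtain ⟨d, hd0, hd⟩ := HermWitt.norm_surj σ hσ hσ2 (x : F) (by rw [hσx]; exact x.2) h0
          rw [← hd, mul_comm]
          exact hcon d hd0
      let φ : {x : F // x ^ q = x} → Bool := fun x => decide ((x : F) = 0)
      have hφ : Function.Injective φ := by
        intro x y hxy
        have h5 : ((x : F) = 0) ↔ ((y : F) = 0) := by simpa [φ] using hxy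
        apply Subtype.ext
        rcases hsub x with hx | hx
        · rw [hx, h5.mp hx]
        · rcases hsub y with hy | hy
          · rw [h5.mpr hy] at hx
            exact absurd hx zero_ne_one
          · rw [hx, hy]
      have := Nat.card_le_card_of_injective φ hφ
      simpa using this
    omega

/-- **Maximality of the tensor-wreath stabilisers in `SU_n(q)`.** -/
theorem wreath_maximal_all {F : Type*} [Field F] [Fintype F] {n q : ℕ} (hF : Fintype.card F = q ^ 2) {k t : ℕ}
    (hk : 3 ≤ k) (ht : 2 ≤ t) (hex : ¬ (q = 2 ∧ k = 3)) (e : Fin n ≃ (Fin t → Fin k))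
    (P : Matrix.GeneralLinearGroup (Fin n) F) (f₁ : (Fin k → F) → (Fin k → F) → F) (hf₁ : IsUnitaryFormPow q f₁)
    (hT : IsTensorPowerFormStructure (fun x : F => x ^ q) (Cfsg.hermForm n F q) f₁ e P) :
    IsMaximalIn (Cfsg.GU n F q ⊓ Cfsg.Geo.specialLinear (Fin n) F)
      (tensorWreathSubgroup k t e P ⊓ (Cfsg.GU n F q ⊓ Cfsg.Geo.specialLinear (Fin n) F)) := by
  obtain ⟨s, rfl⟩ : ∃ s, t = s + 1 := ⟨t - 1, by omega⟩
  have hσx : ∀ x, ((conj hF : F ≃+* F) : F →+* F) x = x ^ q := fun x => rfl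
  have hσ : ((conj hF : F ≃+* F) : F →+* F) ≠ RingHom.id F := by
    intro h
    obtain ⟨x, hx⟩ := exists_not_fixed hF
    exact hx (by rw [← hσx, h]; rfl)
  have hσ2 : ∀ x, ((conj hF : F ≃+* F) : F →+* F) (((conj hF : F ≃+* F) : F →+* F) x) = x := fun x => by
    rw [hσx, hσx, pow_q_pow_q hF]
  exact wreath_maximal hF hk (by omega) hex e P f₁ hf₁ hT fun M hM =>
    partA hσ hσ2 hk (by omega) (hqk_of hF hk hex) (overT_of_overW hM)

end Cfsg.Agent.H881
end
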