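import Cfsg.Agent.H881.Wrap2
import Cfsg.Agent.H880.UFinal
set_option linter.all false

-- part: H881/PA1
section
/-!
Part A, the basic step: an additive set `𝒦` of operators closed under conjugation by the transvections
`1 + l E(b,b)` and scaling by the fixed field contains `E(d,a) K E(a,d)` for `K ∈ 𝒦`, `a` isotropic, some isotropic `d`.
-/

set_option autoImplicit false
set_option linter.unusedSectionVars false

namespace Cfsg.Agent.H881

open Module Matrix Cfsg.Agent.ClassicalGeometry Cfsg.Agent.H880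

section

variable {F : Type*} [Field F] [Finite F] {σ : F →+* F} {k : ℕ} {R : Type*} [Ring R] [Algebra F R]

/-- Operators `E x y = |x⟩⟨y|`. -/
structure EFam (σ : F →+* F) (E : (Fin k → F) → (Fin k → F) → R) : Prop where
  mul : ∀ x y x' y', E x y * E x' y' = stB σ k y x' • E x y'
  add_left : ∀ x x' y, E (x + x') y = E x y + E x' y
  add_right : ∀ x y y', E x (y + y') = E x y + E x y'
  smul_left : ∀ (c : F) x y, E (c • x) y = c • E x y
  smul_right : ∀ (c : F) x y, E x (c • y) = σ c • E x y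

theorem EFam.mul' {E : (Fin k → F) → (Fin k → F) → R} (hE : EFam σ E) (x y x' y' : Fin k → F) (Z : R) :
    E x y * (E x' y' * Z) = stB σ k y x' • (E x y' * Z) := by
  rw [← mul_assoc, hE.mul, smul_mul_assoc]

/-- The hypotheses on `𝒦`. -/
structure KSet (σ : F →+* F) (E : (Fin k → F) → (Fin k → F) → R) (K : AddSubgroup R) : Prop where
  scal : ∀ ρ : F, σ ρ = ρ → ∀ x ∈ K, ρ • x ∈ K
  tv : ∀ b : Fin k → F, stB σ k b b = 0 → ∀ l : F, l + σ l = 0 → ∀ x ∈ K, (1 + l • E b b) * x * (1 - l • E b b) ∈ K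

/-- The case `q ≥ 3`. -/
theorem T_step_three (hσ : σ ≠ RingHom.id F) (hσ2 : ∀ x : F, σ (σ x) = x)
    (hc : ∃ c : F, c ≠ 0 ∧ σ c * c ≠ 1) {E : (Fin k → F) → (Fin k → F) → R} {K : AddSubgroup R} (hK : KSet σ E K)
    {a : Fin k → F} (ha : stB σ k a a = 0) {x : R} (hx : x ∈ K) : E a a * x * E a a ∈ K := by
  obtain ⟨c, hc0, hc1⟩ := hc
  set ρ : F := σ c * c with hρ
  have hρ0 : ρ ≠ 0 := mul_ne_zero ((map_ne_zero σ).mpr hc0) hc0
  have hρσ : σ ρ = ρ := by rw [hρ, map_mul, hσ2, mul_comm]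
  obtain ⟨l, hl0, hl⟩ := exists_skew hσ hσ2
  have hσl : σ l = -l := by linear_combination hl
  have h1 := K.sub_mem (hK.tv a ha l hl x hx) hx
  have h2 := K.sub_mem (hK.tv a ha (ρ * l) (by rw [map_mul, hρσ, hσl]; ring) x hx) hx
  have h3 := K.sub_mem h2 (hK.scal ρ hρσ _ h1)
  have h4 : (1 + (ρ * l) • E a a) * x * (1 - (ρ * l) • E a a) - x - ρ • ((1 + l • E a a) * x * (1 - l • E a a) - x) =
      (-(ρ ^ 2 - ρ) * l ^ 2) • (E a a * x * E a a) := by
    simp only [add_mul, mul_sub, one_mul, mul_one, smul_mul_assoc, mul_smul_comm, smul_smul, smul_sub, smul_add]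
    module
  rw [h4] at h3
  set τ : F := -(ρ ^ 2 - ρ) * l ^ 2 with hτ
  have hτ0 : τ ≠ 0 := by
    refine mul_ne_zero (neg_ne_zero.mpr ?_) (pow_ne_zero 2 hl0)
    intro h5
    have h6 : ρ * (ρ - 1) = 0 := by linear_combination h5
    rcases mul_eq_zero.mp h6 with h7 | h7
    · exact hρ0 h7
    · exact hc1 (sub_eq_zero.mp h7)
  have hτσ : σ τ = τ := by
    rw [hτ, map_mul, map_neg, map_sub, map_pow, map_pow, hρσ, hσl]
    ring
  have h5 := hK.scal τ⁻¹ (by rw [map_inv₀, hτσ]) _ h3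
  rwa [smul_smul, inv_mul_cancel₀ hτ0, one_smul] at h5

/-- Second differences. -/
theorem T_second (hσ : σ ≠ RingHom.id F) (hσ2 : ∀ x : F, σ (σ x) = x)
    {E : (Fin k → F) → (Fin k → F) → R} (hE : EFam σ E) {K : AddSubgroup R} (hK : KSet σ E K)
    {a b : Fin k → F} (ha : stB σ k a a = 0) (hb : stB σ k b b = 0) (hab : stB σ k a b = 0) (hba : stB σ k b a = 0)
    {x : R} (hx : x ∈ K) : E a a * x * E b b + E b b * x * E a a ∈ K := by
  obtain ⟨l, hl0, hl⟩ := exists_skew hσ hσ2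
  have hσl : σ l = -l := by linear_combination hl
  have h1 := K.sub_mem (hK.tv b hb l hl x hx) hx
  have h2 := K.sub_mem (hK.tv a ha l hl _ h1) h1
  have h3 : (1 + l • E a a) * ((1 + l • E b b) * x * (1 - l • E b b) - x) * (1 - l • E a a) -
      ((1 + l • E b b) * x * (1 - l • E b b) - x) = (-l ^ 2) • (E a a * x * E b b + E b b * x * E a a) := by
    have e1 : E a a * E b b = 0 := by rw [hE.mul, hab, zero_smul]
    have e2 : E b b * E a a = 0 := by rw [hE.mul, hba, zero_smul]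
    have e3 : ∀ Z : R, E a a * (E b b * Z) = 0 := fun Z => by rw [← mul_assoc, e1, zero_mul]
    simp only [add_mul, mul_sub, sub_mul, one_mul, mul_one, smul_mul_assoc, mul_smul_comm, smul_smul, smul_sub, smul_add,
      mul_add, mul_assoc, e2, e3, mul_zero, smul_zero, add_zero, sub_zero]
    module
  rw [h3] at h2
  have hl2 : -l ^ 2 ≠ 0 := neg_ne_zero.mpr (pow_ne_zero 2 hl0)
  have h5 := hK.scal (-l ^ 2)⁻¹ (by rw [map_inv₀, map_neg, map_pow, hσl]; ring) _ h2
  rwa [smul_smul, inv_mul_cancel₀ hl2, one_smul] at h5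

/-- Polarised second differences. -/
theorem T_polar (hσ : σ ≠ RingHom.id F) (hσ2 : ∀ x : F, σ (σ x) = x)
    {E : (Fin k → F) → (Fin k → F) → R} (hE : EFam σ E) {K : AddSubgroup R} (hK : KSet σ E K)
    {a b : Fin k → F} (ha : stB σ k a a = 0) (hb : stB σ k b b = 0) (hab : stB σ k a b = 0) (hba : stB σ k b a = 0)
    (m : F) {x : R} (hx : x ∈ K) : m • (E a a * x * E a b + E a b * x * E a a) +
      σ m • (E a a * x * E b a + E b a * x * E a a) + (2 * (m * σ m)) • (E a a * x * E a a) ∈ K := by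
  have h1 := T_second hσ hσ2 hE hK ha hb hab hba hx
  have h2 := T_second hσ hσ2 hE hK ha (b := b + m • a) (by
      simp only [map_add, LinearMap.add_apply, LinearMap.map_smulₛₗ₂, map_smul, smul_eq_mul, ha, hb, hab, hba]; ring) (by
      simp only [map_add, map_smul, smul_eq_mul, ha, hab]; ring) (by
      simp only [map_add, LinearMap.add_apply, LinearMap.map_smulₛₗ₂, smul_eq_mul, ha, hba]; ring) hx
  have h3 := K.sub_mem h2 h1
  have h4 : E a a * x * E (b + m • a) (b + m • a) + E (b + m • a) (b + m • a) * x * E a a -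
      (E a a * x * E b b + E b b * x * E a a) = m • (E a a * x * E a b + E a b * x * E a a) +
      σ m • (E a a * x * E b a + E b a * x * E a a) + (2 * (m * σ m)) • (E a a * x * E a a) := by
    simp only [hE.add_left, hE.add_right, hE.smul_left, hE.smul_right, mul_add, add_mul, smul_mul_assoc, mul_smul_comm,
      smul_smul, smul_add]
    module
  rwa [h4] at h3

/-- The case `k ≥ 4`. -/
theorem T_step_four (hσ : σ ≠ RingHom.id F) (hσ2 : ∀ x : F, σ (σ x) = x)
    {E : (Fin k → F) → (Fin k → F) → R} (hE : EFam σ E) {K : AddSubgroup R} (hK : KSet σ E K)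
    {a b c d : Fin k → F} (haa : stB σ k a a = 0) (hbb : stB σ k b b = 0) (hcc : stB σ k c c = 0) (hdd : stB σ k d d = 0)
    (hac : stB σ k a c = 1) (hbd : stB σ k b d = 1) (hab : stB σ k a b = 0) (had : stB σ k a d = 0)
    (hcb : stB σ k c b = 0) (hcd : stB σ k c d = 0) {x : R} (hx : x ∈ K) : E d a * x * E a d ∈ K := by
  have hS := stB_symm hσ2 k
  have hba := symm_zero hS hab
  have hda := symm_zero hS had
  have hbc := symm_zero hS hcb
  have hdc := symm_zero hS hcd
  have hca : stB σ k c a = 1 := by rw [← hS.eq, hac, map_one]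
  have hdb : stB σ k d b = 1 := by rw [← hS.eq, hbd, map_one]
  obtain ⟨m, hm⟩ := HermWitt.trace_surj σ hσ hσ2 1 (map_one σ)
  have h1 := T_polar hσ hσ2 hE hK haa hbb hab hba m hx
  have h2 := T_polar hσ hσ2 hE hK hdd hcc hdc hcd 1 h1
  have e1 : σ m = 1 - m := by linear_combination hm
  convert h2 using 1
  simp only [mul_add, add_mul, smul_mul_assoc, mul_smul_comm, mul_assoc, hE.mul, hE.mul', hda, hdb, had, hbd, hca, hac,
    hcb, zero_smul, one_smul, smul_zero, mul_zero, add_zero, zero_add, map_one]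
  rw [e1]
  module

end

end Cfsg.Agent.H881
end

-- part: H881/PA2
section
/-!
Part A: the set of `K`, commuting with the slot `i`, with `1 + K φ_w ∈ M`.
-/

set_option autoImplicit false
set_option linter.unusedSectionVars false

namespace Cfsg.Agent.H881

open Module Matrix Cfsg.Agent.ClassicalGeometry Cfsg.Agent.H880 Cfsg.Agent.H919

section

variable {F : Type*} [Field F] [Finite F] {σ : F →+* F} {k s : ℕ}

/-- `|x⟩⟨y|` as a matrix. -/
def ee (σ : F →+* F) (x y : Fin k → F) : Matrix (Fin k) (Fin k) F := vecMulVec x (σ ∘ y)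

theorem ee_mul (x y x' y' : Fin k → F) : ee σ x y * ee σ x' y' = stB σ k y x' • ee σ x y' := by
  unfold ee
  rw [Matrix.vecMulVec_mul_vecMulVec]
  ext i j
  simp only [vecMulVec_apply, Matrix.smul_apply, Pi.smul_apply, smul_eq_mul, Function.comp_apply]
  have h1 : (⇑σ ∘ y) ⬝ᵥ x' = stB σ k y x' := rfl
  rw [h1]
  ring

theorem ee_add_left (x x' y : Fin k → F) : ee σ (x + x') y = ee σ x y + ee σ x' y := Matrix.add_vecMulVec _ _ _

theorem ee_add_right (x y y' : Fin k → F) : ee σ x (y + y') = ee σ x y + ee σ x y' := by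
  unfold ee
  rw [← Matrix.vecMulVec_add]
  congr 1
  funext j
  exact map_add σ _ _

theorem ee_smul_left (c : F) (x y : Fin k → F) : ee σ (c • x) y = c • ee σ x y := Matrix.smul_vecMulVec _ _ _

theorem ee_smul_right (c : F) (x y : Fin k → F) : ee σ x (c • y) = σ c • ee σ x y := by
  unfold ee
  rw [← Matrix.vecMulVec_smul]
  congr 1
  funext j
  exact map_mul σ _ _

theorem eFam (i : Fin (s + 1)) : EFam σ (fun x y => (slotMat i (ee σ x y) :
    Matrix (Fin (s + 1) → Fin k) (Fin (s + 1) → Fin k) F)) where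
  mul x y x' y' := by rw [← slotMat_mul, ee_mul, slotMat_smul]
  add_left x x' y := by rw [ee_add_left, slotMat_add]
  add_right x y y' := by rw [ee_add_right, slotMat_add]
  smul_left c x y := by rw [ee_smul_left, slotMat_smul]
  smul_right c x y := by rw [ee_smul_right, slotMat_smul]

variable {M : Subgroup (Matrix.GeneralLinearGroup (Fin (s + 1) → Fin k) F)}

/-- `K` commutes with the slot `i` and `1 + K φ_w ∈ M`. -/
def KI (M : Subgroup (Matrix.GeneralLinearGroup (Fin (s + 1) → Fin k) F)) (σ : F →+* F) (i : Fin (s + 1))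
    (w : Fin k → F) (K : Matrix (Fin (s + 1) → Fin k) (Fin (s + 1) → Fin k) F) : Prop :=
  (∀ x, K * slotMat i x = slotMat i x * K) ∧
    ∃ g ∈ M, (g : Matrix (Fin (s + 1) → Fin k) (Fin (s + 1) → Fin k) F) = 1 + K * slotMat i (ee σ w w)

/-- Isometries of `F^k` of determinant one as elements of `M`. -/
theorem exists_slot (hM : OverT σ M) (m : Fin (s + 1)) {z : (Fin k → F) ≃ₗ[F] (Fin k → F)}
    (hz : ∀ x y, stB σ k (z x) (z y) = stB σ k x y) (hzd : LinearMap.det (z : (Fin k → F) →ₗ[F] (Fin k → F)) = 1) :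
    ∃ (A A' : Matrix (Fin k) (Fin k) F) (g : Matrix.GeneralLinearGroup (Fin (s + 1) → Fin k) F), g ∈ M ∧
      (g : Matrix (Fin (s + 1) → Fin k) (Fin (s + 1) → Fin k) F) = slotMat m A ∧
      ((g⁻¹ : Matrix.GeneralLinearGroup (Fin (s + 1) → Fin k) F) :
        Matrix (Fin (s + 1) → Fin k) (Fin (s + 1) → Fin k) F) = slotMat m A' ∧
      (∀ x y, A * ee σ x y = ee σ (z x) y) ∧ (∀ x y, ee σ x y * A' = ee σ x (z y)) ∧ A * A' = 1 ∧ A' * A = 1 := by
  have h1 : ∀ x, (LinearMap.toMatrix' (z : (Fin k → F) →ₗ[F] (Fin k → F))) *ᵥ x = z x := by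
    intro x
    rw [LinearMap.toMatrix'_mulVec]
    rfl
  set A := LinearMap.toMatrix' (z : (Fin k → F) →ₗ[F] (Fin k → F)) with hA
  have hu : (A.map σ)ᵀ * A = 1 := iso_unit (fun x y => by rw [h1, h1, hz])
  have hu' : A * (A.map σ)ᵀ = 1 := mul_eq_one_comm.mp hu
  obtain ⟨g, hg, hgA⟩ := hM.slot m A hu (by rw [hA, LinearMap.det_toMatrix', hzd])
  refine ⟨A, (A.map σ)ᵀ, g, hg, hgA, ?_, fun x y => ?_, fun x y => ?_, hu', hu⟩
  · have h2 : slotMat m ((A.map σ)ᵀ) * (g : Matrix (Fin (s + 1) → Fin k) (Fin (s + 1) → Fin k) F) = 1 := by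
      rw [hgA, ← slotMat_mul, hu, slotMat_one]
    calc ((g⁻¹ : Matrix.GeneralLinearGroup (Fin (s + 1) → Fin k) F) :
        Matrix (Fin (s + 1) → Fin k) (Fin (s + 1) → Fin k) F)
        = (slotMat m ((A.map σ)ᵀ) * (g : Matrix (Fin (s + 1) → Fin k) (Fin (s + 1) → Fin k) F)) *
          ((g⁻¹ : Matrix.GeneralLinearGroup (Fin (s + 1) → Fin k) F) :
            Matrix (Fin (s + 1) → Fin k) (Fin (s + 1) → Fin k) F) := by rw [h2, one_mul]
      _ = _ := by rw [mul_assoc, Units.mul_inv, mul_one]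
  · unfold ee
    rw [Matrix.mul_vecMulVec, h1]
  · unfold ee
    rw [Matrix.vecMulVec_mul, Matrix.vecMul_transpose]
    congr 1
    funext j
    rw [← h1]
    simp only [Matrix.mulVec, dotProduct, Function.comp_apply, map_sum, map_mul, Matrix.map_apply]

theorem KI.add {i : Fin (s + 1)} {w : Fin k → F} (hw : stB σ k w w = 0)
    {K K' : Matrix (Fin (s + 1) → Fin k) (Fin (s + 1) → Fin k) F} (h : KI M σ i w K) (h' : KI M σ i w K') :
    KI M σ i w (K + K') := by
  obtain ⟨h1, g, hg, hgK⟩ := h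
  obtain ⟨h1', g', hg', hgK'⟩ := h'
  refine ⟨fun x => by rw [add_mul, mul_add, h1, h1'], g * g', M.mul_mem hg hg', ?_⟩
  have h0 : slotMat i (ee σ w w) * slotMat i (ee σ w w) =
      (0 : Matrix (Fin (s + 1) → Fin k) (Fin (s + 1) → Fin k) F) := by
    rw [(eFam (σ := σ) i).mul, hw, zero_smul]
  have h2 : (K * slotMat i (ee σ w w)) * (K' * slotMat i (ee σ w w)) = 0 := by
    rw [mul_assoc, ← mul_assoc (slotMat i (ee σ w w)) K', ← h1', mul_assoc K', h0, mul_zero, mul_zero]
  rw [Units.val_mul, hgK, hgK', add_mul, mul_add, mul_add, h2, one_mul, mul_one, one_mul, add_zero, add_mul]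
  abel

theorem KI.neg {i : Fin (s + 1)} {w : Fin k → F} (hw : stB σ k w w = 0)
    {K : Matrix (Fin (s + 1) → Fin k) (Fin (s + 1) → Fin k) F} (h : KI M σ i w K) : KI M σ i w (-K) := by
  obtain ⟨h1, g, hg, hgK⟩ := h
  refine ⟨fun x => by rw [neg_mul, mul_neg, h1], g⁻¹, M.inv_mem hg, ?_⟩
  have h0 : slotMat i (ee σ w w) * slotMat i (ee σ w w) =
      (0 : Matrix (Fin (s + 1) → Fin k) (Fin (s + 1) → Fin k) F) := by
    rw [(eFam (σ := σ) i).mul, hw, zero_smul]
  have h2 : (K * slotMat i (ee σ w w)) * (K * slotMat i (ee σ w w)) = 0 := by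
    rw [mul_assoc, ← mul_assoc (slotMat i (ee σ w w)) K, ← h1, mul_assoc K, h0, mul_zero, mul_zero]
  have h3 : (1 + -K * slotMat i (ee σ w w)) * (g : Matrix (Fin (s + 1) → Fin k) (Fin (s + 1) → Fin k) F) = 1 := by
    rw [hgK, neg_mul, add_mul, mul_add, one_mul, one_mul, neg_mul, mul_add, h2, mul_one]
    simp
  calc ((g⁻¹ : Matrix.GeneralLinearGroup (Fin (s + 1) → Fin k) F) :
      Matrix (Fin (s + 1) → Fin k) (Fin (s + 1) → Fin k) F)
      = ((1 + -K * slotMat i (ee σ w w)) * (g : Matrix (Fin (s + 1) → Fin k) (Fin (s + 1) → Fin k) F)) *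
        ((g⁻¹ : Matrix.GeneralLinearGroup (Fin (s + 1) → Fin k) F) :
          Matrix (Fin (s + 1) → Fin k) (Fin (s + 1) → Fin k) F) := by rw [h3, one_mul]
    _ = _ := by rw [mul_assoc, Units.mul_inv, mul_one]

theorem KI.zero {i : Fin (s + 1)} {w : Fin k → F} : KI M σ i w 0 :=
  ⟨fun x => by rw [zero_mul, mul_zero], 1, M.one_mem, by rw [zero_mul, add_zero, Units.val_one]⟩

/-- Conjugation by elements of the slot `i` itself. -/
theorem KI.move (hM : OverT σ M) {i : Fin (s + 1)} {w : Fin k → F}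
    {K : Matrix (Fin (s + 1) → Fin k) (Fin (s + 1) → Fin k) F} (h : KI M σ i w K)
    {z : (Fin k → F) ≃ₗ[F] (Fin k → F)} (hz : ∀ x y, stB σ k (z x) (z y) = stB σ k x y)
    (hzd : LinearMap.det (z : (Fin k → F) →ₗ[F] (Fin k → F)) = 1) : KI M σ i (z w) K := by
  obtain ⟨A, A', a, ha, haA, haA', hA, hA', hAA', _⟩ := exists_slot hM i hz hzd
  obtain ⟨h1, g, hg, hgK⟩ := h
  refine ⟨h1, a * g * a⁻¹, M.mul_mem (M.mul_mem ha hg) (M.inv_mem ha), ?_⟩
  rw [Units.val_mul, Units.val_mul, haA, haA', hgK, mul_add, add_mul, mul_one, ← slotMat_mul, hAA', slotMat_one,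
    ← mul_assoc, ← h1, mul_assoc, mul_assoc, ← slotMat_mul, ← slotMat_mul, hA', hA]

theorem KI.scal (hσ : σ ≠ RingHom.id F) (hσ2 : ∀ x : F, σ (σ x) = x) (hk : 3 ≤ k) (hM : OverT σ M)
    {i : Fin (s + 1)} {w : Fin k → F} (hw0 : w ≠ 0) (hw : stB σ k w w = 0)
    {K : Matrix (Fin (s + 1) → Fin k) (Fin (s + 1) → Fin k) F} (h : KI M σ i w K) {ρ : F} (hρ : σ ρ = ρ) :
    KI M σ i w (ρ • K) := by
  by_cases hρ0 : ρ = 0
  · rw [hρ0, zero_smul]
    exact KI.zero
  obtain ⟨c, hc0, hc⟩ := HermWitt.norm_surj σ hσ hσ2 ρ hρ hρ0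
  obtain ⟨z, hz, hzd, hzw⟩ := exists_su hσ hσ2 hk hw0 (smul_ne_zero hc0 hw0) (by
    rw [LinearMap.map_smulₛₗ₂, map_smul, hw, smul_zero, smul_zero])
  obtain ⟨h1, g, hg, hgK⟩ := h.move hM hz hzd
  refine ⟨fun x => by rw [Matrix.smul_mul, h1, Matrix.mul_smul], g, hg, ?_⟩
  rw [hgK, hzw, ee_smul_left, ee_smul_right, smul_smul, slotMat_smul, Matrix.mul_smul, Matrix.smul_mul, hc]

/-- Conjugation by elements of the other slots. -/
theorem KI.conj (hM : OverT σ M) {i m : Fin (s + 1)} (hmi : m ≠ i) {w : Fin k → F}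
    {K : Matrix (Fin (s + 1) → Fin k) (Fin (s + 1) → Fin k) F} (h : KI M σ i w K)
    {z : (Fin k → F) ≃ₗ[F] (Fin k → F)} (hz : ∀ x y, stB σ k (z x) (z y) = stB σ k x y)
    (hzd : LinearMap.det (z : (Fin k → F) →ₗ[F] (Fin k → F)) = 1) :
    ∃ A A' : Matrix (Fin k) (Fin k) F, (∀ x y, A * ee σ x y = ee σ (z x) y) ∧ (∀ x y, ee σ x y * A' = ee σ x (z y)) ∧
      KI M σ i w (slotMat m A * K * slotMat m A') := by
  obtain ⟨A, A', a, ha, haA, haA', hA, hA', hAA', _⟩ := exists_slot hM m hz hzd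
  obtain ⟨h1, g, hg, hgK⟩ := h
  refine ⟨A, A', hA, hA', fun x => ?_, a * g * a⁻¹, M.mul_mem (M.mul_mem ha hg) (M.inv_mem ha), ?_⟩
  · have e1 : slotMat m A' * slotMat i x = slotMat i x * slotMat m A' := slotMat_commute hmi A' x
    have e2 : slotMat m A * slotMat i x = slotMat i x * slotMat m A := slotMat_commute hmi A x
    rw [mul_assoc, mul_assoc, e1, ← mul_assoc K, h1, mul_assoc (slotMat i x) K, ← mul_assoc (slotMat m A), e2,
      mul_assoc (slotMat i x), mul_assoc (slotMat m A)]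
  · have e1 : slotMat i (ee σ w w) * slotMat m A' = slotMat m A' * slotMat i (ee σ w w) := slotMat_commute (Ne.symm hmi) _ _
    rw [Units.val_mul, Units.val_mul, haA, haA', hgK, mul_add, add_mul, mul_one, ← slotMat_mul, hAA', slotMat_one,
      mul_assoc (slotMat m A), mul_assoc K, e1]
    simp only [mul_assoc]

/-- The additive group of the `K`. -/
def KIgrp (M : Subgroup (Matrix.GeneralLinearGroup (Fin (s + 1) → Fin k) F)) (σ : F →+* F) (i : Fin (s + 1))
    {w : Fin k → F} (hw : stB σ k w w = 0) : AddSubgroup (Matrix (Fin (s + 1) → Fin k) (Fin (s + 1) → Fin k) F) where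
  carrier := {K | KI M σ i w K}
  zero_mem' := KI.zero
  add_mem' h h' := h.add hw h'
  neg_mem' h := h.neg hw

theorem KIset (hσ : σ ≠ RingHom.id F) (hσ2 : ∀ x : F, σ (σ x) = x) (hk : 3 ≤ k) (hM : OverT σ M)
    {i m : Fin (s + 1)} (hmi : m ≠ i) {w : Fin k → F} (hw0 : w ≠ 0) (hw : stB σ k w w = 0) :
    KSet σ (fun x y => (slotMat m (ee σ x y) : Matrix (Fin (s + 1) → Fin k) (Fin (s + 1) → Fin k) F))
      (KIgrp M σ i hw) where
  scal ρ hρ x hx := KI.scal hσ hσ2 hk hM hw0 hw hx hρ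
  tv b hb l hl x hx := by
    obtain ⟨h1, h2, _⟩ := tv_mat hσ2 hb hl
    have h3 : (1 + l • ee σ b b : Matrix (Fin k) (Fin k) F) * (1 - l • ee σ b b) = 1 := by
      have h5 : ee σ b b * ee σ b b = 0 := by rw [ee_mul, hb, zero_smul]
      rw [mul_sub, mul_one, add_mul, one_mul, Matrix.smul_mul, Matrix.mul_smul, h5, smul_zero, smul_zero, add_zero]
      abel
    obtain ⟨a, ha, haA⟩ := hM.slot m _ h1 h2
    have haA' : ((a⁻¹ : Matrix.GeneralLinearGroup (Fin (s + 1) → Fin k) F) :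
        Matrix (Fin (s + 1) → Fin k) (Fin (s + 1) → Fin k) F) = slotMat m (1 - l • ee σ b b) := by
      have h4 : (a : Matrix (Fin (s + 1) → Fin k) (Fin (s + 1) → Fin k) F) * slotMat m (1 - l • ee σ b b) = 1 := by
        rw [haA, ← slotMat_mul]
        show slotMat m ((1 + l • ee σ b b) * (1 - l • ee σ b b)) = 1
        rw [h3, slotMat_one]
      calc ((a⁻¹ : Matrix.GeneralLinearGroup (Fin (s + 1) → Fin k) F) :
          Matrix (Fin (s + 1) → Fin k) (Fin (s + 1) → Fin k) F)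
          = ((a⁻¹ : Matrix.GeneralLinearGroup (Fin (s + 1) → Fin k) F) :
            Matrix (Fin (s + 1) → Fin k) (Fin (s + 1) → Fin k) F) *
            ((a : Matrix (Fin (s + 1) → Fin k) (Fin (s + 1) → Fin k) F) * slotMat m (1 - l • ee σ b b)) := by
              rw [h4, mul_one]
        _ = _ := by rw [← mul_assoc, Units.inv_mul, one_mul]
    obtain ⟨hx1, g, hg, hgK⟩ := hx
    have e0 : (1 + l • slotMat m (ee σ b b) : Matrix (Fin (s + 1) → Fin k) (Fin (s + 1) → Fin k) F) =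
        slotMat m (1 + l • ee σ b b) := by rw [slotMat_add, slotMat_one, slotMat_smul]
    have e0' : (1 - l • slotMat m (ee σ b b) : Matrix (Fin (s + 1) → Fin k) (Fin (s + 1) → Fin k) F) =
        slotMat m (1 - l • ee σ b b) := by
      have : (1 - l • ee σ b b : Matrix (Fin k) (Fin k) F) = 1 + (-l) • ee σ b b := by rw [neg_smul]; abel
      rw [this, slotMat_add, slotMat_one, slotMat_smul, neg_smul]
      abel
    show KI M σ i w ((1 + l • slotMat m (ee σ b b)) * x * (1 - l • slotMat m (ee σ b b)))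
    rw [e0, e0']
    set A := (1 + l • ee σ b b : Matrix (Fin k) (Fin k) F)
    set A' := (1 - l • ee σ b b : Matrix (Fin k) (Fin k) F)
    refine ⟨fun y => ?_, a * g * a⁻¹, M.mul_mem (M.mul_mem ha hg) (M.inv_mem ha), ?_⟩
    · have e1 : slotMat m A' * slotMat i y = slotMat i y * slotMat m A' := slotMat_commute hmi A' y
      have e2 : slotMat m A * slotMat i y = slotMat i y * slotMat m A := slotMat_commute hmi A y
      rw [mul_assoc, mul_assoc, e1, ← mul_assoc x, hx1, mul_assoc (slotMat i y) x, ← mul_assoc (slotMat m A), e2,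
        mul_assoc (slotMat i y), mul_assoc (slotMat m A)]
    · have e1 : slotMat i (ee σ w w) * slotMat m A' = slotMat m A' * slotMat i (ee σ w w) :=
        slotMat_commute (Ne.symm hmi) _ _
      have haA2 : (a : Matrix (Fin (s + 1) → Fin k) (Fin (s + 1) → Fin k) F) = slotMat m A := haA
      rw [Units.val_mul, Units.val_mul, haA2, haA', hgK, mul_add, add_mul, mul_one, ← slotMat_mul, h3, slotMat_one,
        mul_assoc (slotMat m A), mul_assoc x, e1]
      simp only [mul_assoc]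

/-- **The basic step in slots.** -/
theorem KI.step (hσ : σ ≠ RingHom.id F) (hσ2 : ∀ x : F, σ (σ x) = x) (hk : 3 ≤ k)
    (hqk : 4 ≤ k ∨ ∃ c : F, c ≠ 0 ∧ σ c * c ≠ 1) (hM : OverT σ M)
    {i m : Fin (s + 1)} (hmi : m ≠ i) {w : Fin k → F} (hw0 : w ≠ 0) (hw : stB σ k w w = 0)
    {K : Matrix (Fin (s + 1) → Fin k) (Fin (s + 1) → Fin k) F} (h : KI M σ i w K)
    {b d : Fin k → F} (hb0 : b ≠ 0) (hb : stB σ k b b = 0) (hd0 : d ≠ 0) (hd : stB σ k d d = 0) :
    KI M σ i w (slotMat m (ee σ d b) * K * slotMat m (ee σ b d)) := by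
  have hS := stB_symm hσ2 k
  have hset := KIset hσ hσ2 hk hM hmi hw0 hw
  have hK : K ∈ KIgrp M σ i hw := h
  obtain ⟨d₀, hd₀0, hd₀, h1⟩ : ∃ d₀ : Fin k → F, d₀ ≠ 0 ∧ stB σ k d₀ d₀ = 0 ∧
      KI M σ i w (slotMat m (ee σ d₀ b) * K * slotMat m (ee σ b d₀)) := by
    rcases hqk with h4 | hc
    · -- four dimensions
      obtain ⟨c, hbc, hcc⟩ := exists_partner_std hσ hσ2 hb0 hb
      have hcb : stB σ k c b = 1 := by rw [← hS.eq, hbc, map_one]
      have hdim := finrank_perp_range (B := stB σ k) ![b, c]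
      rw [Fintype.card_fin, finrank_fin_fun] at hdim
      obtain ⟨f, hf, hf0, hff⟩ := exists_isotropic (B := stB σ k) hσ hσ2 hS (perp (stB σ k) (Set.range ![b, c]))
        (by omega)
      have hbf : stB σ k b f = 0 := hf _ ⟨0, rfl⟩
      have hcf : stB σ k c f = 0 := hf _ ⟨1, rfl⟩
      have hfb := symm_zero hS hbf
      have hfc := symm_zero hS hcf
      obtain ⟨z, hz⟩ : ∃ z, stB σ k f z ≠ 0 := by
        by_contra h
        push Not at h
        exact hf0 (stB_sepLeft k f h)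
      obtain ⟨z', hz'1, hz'2, hz'3⟩ : ∃ z', stB σ k b z' = 0 ∧ stB σ k c z' = 0 ∧ stB σ k f z' ≠ 0 := by
        refine ⟨z - stB σ k c z • b - stB σ k b z • c, ?_, ?_, ?_⟩
        · simp only [map_sub, map_smul, hb, hbc, smul_eq_mul]; ring
        · simp only [map_sub, map_smul, hcc, hcb, smul_eq_mul]; ring
        · simp only [map_sub, map_smul, hfb, hfc, smul_eq_mul, mul_zero, sub_zero]; exact hz
      obtain ⟨r, r', h5, h6⟩ := exists_partner hσ hσ2 hS hff hz'3
      set d := r • z' + r' • f with hd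
      have hbd : stB σ k b d = 0 := by rw [hd, map_add, map_smul, map_smul, hz'1, hbf, smul_zero, smul_zero, add_zero]
      have hcd : stB σ k c d = 0 := by rw [hd, map_add, map_smul, map_smul, hz'2, hcf, smul_zero, smul_zero, add_zero]
      refine ⟨d, ?_, h6, ?_⟩
      · intro h7
        rw [h7, map_zero] at h5
        exact zero_ne_one h5
      · exact T_step_four hσ hσ2 (eFam m) hset (a := b) (b := f) (c := c) (d := d) hb hff hcc h6 hbc h5 hbf hbd hcf hcd hK
    · exact ⟨b, hb0, hb, T_step_three hσ hσ2 hc hset hb hK⟩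
  obtain ⟨z, hz, hzd, hzw⟩ := exists_su hσ hσ2 hk hd₀0 hd0 (by rw [hd₀, hd])
  obtain ⟨A, A', hA, hA', h2⟩ := h1.conj hM hmi hz hzd
  have h3 : slotMat m A * (slotMat m (ee σ d₀ b) * K * slotMat m (ee σ b d₀)) * slotMat m A' =
      slotMat m (ee σ d b) * K * slotMat m (ee σ b d) := by
    have e1 : slotMat m A * (slotMat m (ee σ d₀ b) * K * slotMat m (ee σ b d₀)) * slotMat m A' =
        (slotMat m A * slotMat m (ee σ d₀ b)) * K * (slotMat m (ee σ b d₀) * slotMat m A') := by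
      simp only [mul_assoc]
    rw [e1, ← slotMat_mul, ← slotMat_mul, hA, hA', hzw]
  rwa [h3] at h2

end

end Cfsg.Agent.H881
end

-- part: H881/PureS
section
/-!
Part A: the interface between the two halves.
-/

set_option autoImplicit false
set_option linter.unusedSectionVars false

namespace Cfsg.Agent.H881

open Matrix Cfsg.Agent.ClassicalGeometry Cfsg.Agent.H880 Cfsg.Agent.H919

/-- Up to a common scalar `M` contains `1 + c φ_{v_j} ⊗ ⋯` (over the slots `j ∈ S`) for all nonzero isotropic `v_j`. -/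
def PureS {F : Type*} [Field F] {k s : ℕ} (σ : F →+* F)
    (M : Subgroup (Matrix.GeneralLinearGroup (Fin (s + 1) → Fin k) F)) (S : Finset (Fin (s + 1))) : Prop :=
  ∃ c : F, c ≠ 0 ∧ ∀ v : Fin (s + 1) → Fin k → F, (∀ i ∈ S, v i ≠ 0 ∧ stB σ k (v i) (v i) = 0) →
    ∃ g ∈ M, (g : Matrix (Fin (s + 1) → Fin k) (Fin (s + 1) → Fin k) F) =
      1 + c • pureMat (fun j => if j ∈ S then ee σ (v j) (v j) else 1)

end Cfsg.Agent.H881
end

-- part: H594/TensGenA
section
/-!
Generation of unitary transvections from pure tensors, abstract part (helper594).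

`V` a space with a Hermitian form `B`, `M` a group of isometries, `HasT B M v`: all transvections centred at `v` lie
in `M`. `E` a nondegenerate Hermitian space; `Fin k → E` is `F^k ⊗ E`.
-/

set_option autoImplicit false
set_option linter.unusedSectionVars false

namespace Cfsg.Agent.H594.TensGen

open Module Cfsg.Agent.ClassicalGeometry Matrix Cfsg.Agent.H880

section Forms

variable {F : Type*} [Field F] {σ : F →+* F} {E : Type*} [AddCommGroup E] [Module F E]

/-- The form `∑ b (X j) (Y j)` on `F^k ⊗ E`. -/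
def bF (b : E →ₛₗ[σ] E →ₗ[F] F) {k : ℕ} (X Y : Fin k → E) : F := ∑ j, b (X j) (Y j)

/-- The pure tensor. -/
def tp {k : ℕ} (v : Fin k → F) (y : E) : Fin k → E := fun j => v j • y

/-- The contraction with `v`. -/
def cn (σ : F →+* F) {k : ℕ} (v : Fin k → F) (X : Fin k → E) : E := ∑ j, σ (v j) • X j

theorem bF_tp (hσ2 : ∀ x : F, σ (σ x) = x) (b : E →ₛₗ[σ] E →ₗ[F] F) {k : ℕ} (X : Fin k → E) (v : Fin k → F) (y : E) :
    bF b X (tp v y) = b (cn σ v X) y := by
  unfold bF tp cn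
  rw [map_sum, LinearMap.sum_apply]
  refine Finset.sum_congr rfl fun j _ => ?_
  rw [map_smul, LinearMap.map_smulₛₗ₂, hσ2]

theorem bF_tp_left (b : E →ₛₗ[σ] E →ₗ[F] F) {k : ℕ} (X : Fin k → E) (v : Fin k → F) (y : E) :
    bF b (tp v y) X = b y (cn σ v X) := by
  unfold bF tp cn
  rw [map_sum]
  refine Finset.sum_congr rfl fun j _ => ?_
  rw [LinearMap.map_smulₛₗ₂, map_smul]

theorem cn_tp {k : ℕ} (v w : Fin k → F) (y : E) : cn σ v (tp w y) = stB σ k v w • y := by
  unfold cn tp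
  rw [stB_apply, Finset.sum_smul]
  refine Finset.sum_congr rfl fun j _ => ?_
  rw [smul_smul]

theorem cn_add {k : ℕ} (v : Fin k → F) (X Y : Fin k → E) : cn σ v (X + Y) = cn σ v X + cn σ v Y := by
  unfold cn
  rw [← Finset.sum_add_distrib]
  refine Finset.sum_congr rfl fun j _ => ?_
  rw [Pi.add_apply, smul_add]

theorem cn_sub {k : ℕ} (v : Fin k → F) (X Y : Fin k → E) : cn σ v (X - Y) = cn σ v X - cn σ v Y := by
  unfold cn
  rw [← Finset.sum_sub_distrib]
  refine Finset.sum_congr rfl fun j _ => ?_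
  rw [Pi.sub_apply, smul_sub]

theorem tp_add_left {k : ℕ} (v w : Fin k → F) (y : E) : tp (v + w) y = tp v y + tp w y := by
  funext j; show (v j + w j) • y = v j • y + w j • y; rw [add_smul]

theorem tp_add_right {k : ℕ} (v : Fin k → F) (x y : E) : tp v (x + y) = tp v x + tp v y := by
  funext j; show v j • (x + y) = v j • x + v j • y; rw [smul_add]

theorem tp_sub_right {k : ℕ} (v : Fin k → F) (x y : E) : tp v (x - y) = tp v x - tp v y := by
  funext j; show v j • (x - y) = v j • x - v j • y; rw [smul_sub]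

theorem tp_smul_left {k : ℕ} (c : F) (v : Fin k → F) (y : E) : tp (c • v) y = c • tp v y := by
  funext j; show (c * v j) • y = c • v j • y; rw [mul_smul]

theorem tp_smul_right {k : ℕ} (c : F) (v : Fin k → F) (y : E) : tp v (c • y) = c • tp v y := by
  funext j; show v j • c • y = c • v j • y; rw [smul_comm]

theorem tp_zero_right {k : ℕ} (v : Fin k → F) : tp v (0 : E) = 0 := by
  funext j; show v j • (0 : E) = 0; rw [smul_zero]

theorem tp_zero_left {k : ℕ} (y : E) : tp (0 : Fin k → F) y = 0 := by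
  funext j; show (0 : F) • y = 0; rw [zero_smul]

theorem bF_symm {b : E →ₛₗ[σ] E →ₗ[F] F} (hS : b.IsSymm) {k : ℕ} (X Y : Fin k → E) : σ (bF b X Y) = bF b Y X := by
  unfold bF
  rw [map_sum]
  exact Finset.sum_congr rfl fun j _ => hS.eq _ _

/-- Prescribed products with two independent vectors. -/
theorem exists_two_val (hσ2 : ∀ x : F, σ (σ x) = x) {b : E →ₛₗ[σ] E →ₗ[F] F} (hB : b.SeparatingLeft) {x y : E}
    (hxy : LinearIndependent F ![x, y]) : ∃ u, b x u = 1 ∧ b y u = 0 := by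
  have hy0 : y ≠ 0 := hxy.ne_zero 1
  obtain ⟨z, hz⟩ : ∃ z, b y z ≠ 0 := by
    by_contra h
    push Not at h
    exact hy0 (hB y h)
  obtain ⟨z', hz'⟩ : ∃ z', b y z' = 1 := ⟨(b y z)⁻¹ • z, by rw [map_smul, smul_eq_mul, inv_mul_cancel₀ hz]⟩
  -- some vector is orthogonal to `y` but not to `x`
  obtain ⟨u, hu1, hu2⟩ : ∃ u, b y u = 0 ∧ b x u ≠ 0 := by
    by_contra h
    push Not at h
    have h1 : x - (σ (b x z')) • y = 0 := by
      apply hB
      intro w
      have h2 := h (w - b y w • z') (by rw [map_sub, map_smul, hz', smul_eq_mul, mul_one, sub_self])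
      rw [map_sub, map_smul, smul_eq_mul] at h2
      rw [map_sub, LinearMap.sub_apply, LinearMap.map_smulₛₗ₂, hσ2, smul_eq_mul]
      linear_combination h2
    have h2 := (LinearIndependent.pair_iff.1 hxy) 1 (-(σ (b x z'))) (by rw [one_smul, neg_smul, ← sub_eq_add_neg, h1])
    exact one_ne_zero h2.1
  exact ⟨(b x u)⁻¹ • u, by rw [map_smul, smul_eq_mul, inv_mul_cancel₀ hu2], by rw [map_smul, hu1, smul_zero]⟩

end Forms

section Gen

variable {F : Type*} [Field F] {σ : F →+* F} [Finite F] {V : Type*} [AddCommGroup V] [Module F V]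
  {B : V →ₛₗ[σ] V →ₗ[F] F} {M : Subgroup (V ≃ₗ[F] V)} {E : Type*} [AddCommGroup E] [Module F E]

theorem hasT_zero : HasT B M 0 :=
  ⟨map_zero _, fun l _ => ⟨1, M.one_mem, fun x => by rw [smul_zero, add_zero]; rfl⟩⟩

/-- Dual isotropic embeddings of `F^k ⊗ E`. -/
structure Du {k : ℕ} (B : V →ₛₗ[σ] V →ₗ[F] F) (b : E →ₛₗ[σ] E →ₗ[F] F) (P P' : (Fin k → E) →ₗ[F] V) : Prop where
  pp : ∀ X Y, B (P X) (P Y) = 0
  qq : ∀ X Y, B (P' X) (P' Y) = 0
  pq : ∀ X Y, B (P X) (P' Y) = bF b X Y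

theorem Du.swap {k : ℕ} {b : E →ₛₗ[σ] E →ₗ[F] F} (hS : B.IsSymm) (hSb : b.IsSymm) {P P' : (Fin k → E) →ₗ[F] V}
    (h : Du B b P P') : Du B b P' P :=
  ⟨h.qq, h.pp, fun X Y => by rw [← hS.eq, h.pq, bF_symm hSb]⟩

/-- One half of the rule. -/
theorem rule_half (hσ : σ ≠ RingHom.id F) (hσ2 : ∀ x : F, σ (σ x) = x) (hS : B.IsSymm)
    (hM : ∀ g ∈ M, ∀ x y, B (g x) (g y) = B x y) {b : E →ₛₗ[σ] E →ₗ[F] F} (hB : b.SeparatingLeft)
    {k : ℕ} {P P' : (Fin k → E) →ₗ[F] V} (hP : Du B b P P') {v : Fin k → F}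
    (hv : ∀ y : E, HasT B M (P' (tp v y))) {Y₁ Y₃ : Fin k → E} (h1 : HasT B M (P Y₁)) (h3 : HasT B M (P Y₃))
    (hind : LinearIndependent F ![cn σ v Y₁, cn σ v Y₃]) : HasT B M (P (Y₁ - Y₃)) := by
  obtain ⟨l, hl0, hl⟩ := exists_skew hσ hσ2
  have hσl : σ l = -l := by linear_combination hl
  obtain ⟨u, hu1, hu3⟩ := exists_two_val hσ2 hB hind
  obtain ⟨w, hw3, hw1⟩ := exists_two_val hσ2 hB (LinearIndependent.pair_symm_iff.1 hind)
  have hval : ∀ X y, B (P X) (P' (tp v y)) = b (cn σ v X) y := fun X y => by rw [hP.pq, bF_tp hσ2]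
  have hval' : ∀ X y, B (P' (tp v y)) (P X) = σ (b (cn σ v X) y) := fun X y => by rw [← hS.eq, hval]
  -- `P Y + P' (v ⊗ y)`, with `b (cn Y) y = l`
  have hbase : ∀ Y y, HasT B M (P Y) → b (cn σ v Y) y = l → HasT B M (P Y + P' (tp v y)) := by
    intro Y y hY hy
    refine HasT.add hS hM hY (hv y) ?_ ?_
    · rw [hval', hy, hσl]; exact neg_ne_zero.mpr hl0
    · simp only [map_add, LinearMap.add_apply, hP.pp, hP.qq, hval, hval', hy, hσl]
      ring
  have e1 := hbase Y₁ (l • u) h1 (by rw [map_smul, hu1, smul_eq_mul, mul_one])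
  have e3 : HasT B M (P Y₃ + P' (tp v (l • u))) := by
    have e2 := hbase Y₃ (l • w) h3 (by rw [map_smul, hw3, smul_eq_mul, mul_one])
    have e4 := HasT.add hS hM e2 (hv (l • u - l • w)) (by
      rw [map_add, hval', hP.qq, add_zero, map_sub, map_smul, map_smul, hw3, hu3, smul_zero, smul_eq_mul, mul_one,
        zero_sub, map_neg, hσl, neg_neg]
      exact hl0) (by
      have e : P Y₃ + P' (tp v (l • w)) + P' (tp v (l • u - l • w)) = P Y₃ + P' (tp v (l • u)) := by
        rw [add_assoc, ← map_add, ← tp_add_right, add_sub_cancel]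
      rw [e]
      simp only [map_add, LinearMap.add_apply, hP.pp, hP.qq, hval, hval']
      rw [map_smul, hu3, smul_zero, map_zero]
      ring)
    have e : P Y₃ + P' (tp v (l • w)) + P' (tp v (l • u - l • w)) = P Y₃ + P' (tp v (l • u)) := by
      rw [add_assoc, ← map_add, ← tp_add_right, add_sub_cancel]
    rwa [e] at e4
  have e : P Y₁ + P' (tp v (l • u)) + (-1 : F) • (P Y₃ + P' (tp v (l • u))) = P (Y₁ - Y₃) := by
    rw [map_sub]
    module
  have ev1 : b (cn σ v Y₁) (l • u) = l := by rw [map_smul, hu1, smul_eq_mul, mul_one]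
  have ev3 : b (cn σ v Y₃) (l • u) = 0 := by rw [map_smul, hu3, smul_zero]
  have hBv : B (P Y₃ + P' (tp v (l • u))) (P Y₁ + P' (tp v (l • u))) = -l := by
    simp only [map_add, LinearMap.add_apply, hP.pp, hP.qq, hval, hval', ev1, ev3, hσl]
    ring
  have e5 := HasT.add hS hM e1 (e3.smul hσ2 (-1)) (by
    rw [LinearMap.map_smulₛₗ₂, hBv, map_neg, map_one, smul_eq_mul]
    intro h
    exact hl0 (by linear_combination h)) (by rw [e]; exact hP.pp _ _)
  rwa [e] at e5

/-- The rule. -/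
theorem rule (hσ : σ ≠ RingHom.id F) (hσ2 : ∀ x : F, σ (σ x) = x) (hS : B.IsSymm)
    (hM : ∀ g ∈ M, ∀ x y, B (g x) (g y) = B x y) {b : E →ₛₗ[σ] E →ₗ[F] F} (hSb : b.IsSymm) (hB : b.SeparatingLeft)
    {k : ℕ} {P P' : (Fin k → E) →ₗ[F] V} (hP : Du B b P P') {v : Fin k → F}
    (hv : ∀ y : E, HasT B M (P (tp v y)) ∧ HasT B M (P' (tp v y))) {Y₁ Y₃ : Fin k → E}
    (h1 : HasT B M (P Y₁) ∧ HasT B M (P' Y₁)) (h3 : HasT B M (P Y₃) ∧ HasT B M (P' Y₃))
    (hind : LinearIndependent F ![cn σ v Y₁, cn σ v Y₃]) : HasT B M (P (Y₁ - Y₃)) ∧ HasT B M (P' (Y₁ - Y₃)) :=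
  ⟨rule_half hσ hσ2 hS hM hB hP (fun y => (hv y).2) h1.1 h3.1 hind,
    rule_half hσ hσ2 hS hM hB (hP.swap hS hSb) (fun y => (hv y).1) h1.2 h3.2 hind⟩

/-- All pure tensors. -/
theorem pure_all (hσ : σ ≠ RingHom.id F) (hσ2 : ∀ x : F, σ (σ x) = x) (hS : B.IsSymm)
    (hM : ∀ g ∈ M, ∀ x y, B (g x) (g y) = B x y) {b : E →ₛₗ[σ] E →ₗ[F] F} (hSb : b.IsSymm) (hB : b.SeparatingLeft)
    (h2 : ∀ y : E, y ≠ 0 → ∃ y', LinearIndependent F ![y, y'])
    {k : ℕ} (hk : 3 ≤ k) {P P' : (Fin k → E) →ₗ[F] V} (hP : Du B b P P')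
    (h : ∀ (y : E) (v : Fin k → F), stB σ k v v = 0 → HasT B M (P (tp v y)) ∧ HasT B M (P' (tp v y)))
    (w : Fin k → F) (y : E) : HasT B M (P (tp w y)) ∧ HasT B M (P' (tp w y)) := by
  have hSk := stB_symm hσ2 k
  by_cases hw : stB σ k w w = 0
  · exact h y w hw
  by_cases hy : y = 0
  · subst hy
    rw [tp_zero_right, map_zero, map_zero]
    exact ⟨hasT_zero, hasT_zero⟩
  have hw0 : w ≠ 0 := by
    rintro rfl
    exact hw (by simp)
  obtain ⟨α, hα⟩ := HermWitt.trace_surj σ hσ hσ2 (stB σ k w w) (hSk.eq _ _)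
  obtain ⟨v₁, hwv, hv₁⟩ := exists_vec (B := stB σ k) hσ hσ2 hSk (stB_sepLeft k) (by rw [finrank_fin_fun]; exact hk)
    hw0 α 0 (map_zero σ)
  have hv₁w : stB σ k v₁ w = σ α := by rw [← hSk.eq, hwv]
  obtain ⟨v₂, hv₂d⟩ : ∃ v₂, v₂ = w - v₁ := ⟨_, rfl⟩
  have hwd : w = v₁ + v₂ := by rw [hv₂d]; abel
  have hv₂ : stB σ k v₂ v₂ = 0 := by
    rw [hv₂d]
    simp only [map_sub, LinearMap.sub_apply, hwv, hv₁w, hv₁]
    linear_combination -hα
  have hv₁₂ : stB σ k v₁ v₂ = σ α := by
    rw [hv₂d, map_sub, hv₁, hv₁w, sub_zero]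
  have hv₂₁ : stB σ k v₂ v₁ = α := by rw [← hSk.eq, hv₁₂, hσ2]
  have hα0 : α ≠ 0 := by
    rintro rfl
    rw [map_zero, add_zero] at hα
    exact hw hα.symm
  have hσα0 : σ α ≠ 0 := by simpa using hα0
  obtain ⟨y', hyy'⟩ := h2 y hy
  obtain ⟨l, hl0, hl⟩ := exists_skew hσ hσ2
  -- `y' ⊗ v₁ - y ⊗ v₂`
  have hc1 : l / σ α * σ α = l := div_mul_cancel₀ _ hσα0
  have hc2 : σ l / α * α = σ l := div_mul_cancel₀ _ hα0
  have s1 : HasT B M (P (tp v₁ y' - tp v₂ y)) ∧ HasT B M (P' (tp v₁ y' - tp v₂ y)) := by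
    have hviso : stB σ k (v₁ + (l / σ α) • v₂) (v₁ + (l / σ α) • v₂) = 0 := by
      simp only [map_add, LinearMap.add_apply, LinearMap.map_smulₛₗ₂, map_smul, smul_eq_mul, hv₁, hv₂, hv₁₂, hv₂₁,
        map_div₀, hσ2]
      linear_combination hl + hc1 + hc2
    refine rule hσ hσ2 hS hM hSb hB hP (v := v₁ + (l / σ α) • v₂) (fun y => h y _ hviso) (h _ _ hv₁) (h _ _ hv₂) ?_
    rw [cn_tp, cn_tp]
    have e1 : stB σ k (v₁ + (l / σ α) • v₂) v₁ = σ l := by
      simp only [map_add, LinearMap.add_apply, LinearMap.map_smulₛₗ₂, smul_eq_mul, hv₁, hv₂₁, map_div₀, hσ2]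
      linear_combination hc2
    have e2 : stB σ k (v₁ + (l / σ α) • v₂) v₂ = σ α := by
      simp only [map_add, LinearMap.add_apply, LinearMap.map_smulₛₗ₂, smul_eq_mul, hv₂, hv₁₂]
      ring
    rw [e1, e2]
    have hσl0 : σ l ≠ 0 := by simpa using hl0
    rw [LinearIndependent.pair_iff] at hyy' ⊢
    intro s t hst
    rw [smul_smul, smul_smul, add_comm] at hst
    obtain ⟨h3, h4⟩ := hyy' _ _ hst
    exact ⟨(mul_eq_zero.1 h4).resolve_right hσl0, (mul_eq_zero.1 h3).resolve_right hσα0⟩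
  have s2 := h (y + y') v₁ hv₁
  have s3 := rule hσ hσ2 hS hM hSb hB hP (v := v₂) (fun y => h y _ hv₂) s2 s1 (by
    rw [cn_sub, cn_tp, cn_tp, cn_tp, hv₂₁, hv₂, zero_smul, sub_zero]
    rw [LinearIndependent.pair_iff] at hyy' ⊢
    intro s t hst
    have h5 : (s * α) • y + ((s + t) * α) • y' = 0 := by
      rw [← hst]; module
    obtain ⟨h3, h4⟩ := hyy' _ _ h5
    have hs := (mul_eq_zero.1 h3).resolve_right hα0
    have ht := (mul_eq_zero.1 h4).resolve_right hα0
    rw [hs, zero_add] at ht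
    exact ⟨hs, ht⟩)
  have e : tp v₁ (y + y') - (tp v₁ y' - tp v₂ y) = tp w y := by
    rw [hwd, tp_add_right, tp_add_left]; abel
  rwa [e] at s3

/-- **Lemma B.** All tensors. -/
theorem all_of_iso (hσ : σ ≠ RingHom.id F) (hσ2 : ∀ x : F, σ (σ x) = x) (hS : B.IsSymm)
    (hM : ∀ g ∈ M, ∀ x y, B (g x) (g y) = B x y) {b : E →ₛₗ[σ] E →ₗ[F] F} (hSb : b.IsSymm) (hB : b.SeparatingLeft)
    (h2 : ∀ y : E, y ≠ 0 → ∃ y', LinearIndependent F ![y, y'])
    {k : ℕ} (hk : 3 ≤ k) {P P' : (Fin k → E) →ₗ[F] V} (hP : Du B b P P')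
    (h : ∀ (y : E) (v : Fin k → F), stB σ k v v = 0 → HasT B M (P (tp v y)) ∧ HasT B M (P' (tp v y)))
    (X : Fin k → E) : HasT B M (P X) ∧ HasT B M (P' X) := by
  classical
  have hpure := pure_all hσ hσ2 hS hM hSb hB h2 hk hP h
  induction hN : (Finset.univ.filter fun i => X i ≠ 0).card using Nat.strong_induction_on generalizing X with
  | _ N ih =>
    by_cases hX : ∃ i, X i ≠ 0
    · obtain ⟨i, hi⟩ := hX
      by_cases hj : ∃ j, X j ∉ Submodule.span F {X i}
      · obtain ⟨j, hj⟩ := hj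
        have hij : j ≠ i := by
          rintro rfl
          exact hj (Submodule.mem_span_singleton_self _)
        have hind : LinearIndependent F ![X i, X j] := by
          rw [LinearIndependent.pair_iff]
          intro s t hst
          have ht : t = 0 := by
            by_contra ht
            apply hj
            rw [Submodule.mem_span_singleton]
            refine ⟨-(s / t), ?_⟩
            have : X j = t⁻¹ • (t • X j) := by rw [smul_smul, inv_mul_cancel₀ ht, one_smul]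
            rw [this, eq_neg_of_add_eq_zero_right hst, smul_neg, smul_smul, neg_smul, div_eq_inv_mul]
          rw [ht, zero_smul, add_zero] at hst
          exact ⟨(smul_eq_zero.1 hst).resolve_right hi, ht⟩
        let Y₁ : Fin k → E := Function.update X i 0
        have hY₁i : Y₁ i = 0 := Function.update_self _ _ _
        have hY₁ : ∀ m, m ≠ i → Y₁ m = X m := fun m hm => Function.update_of_ne hm _ _
        have h1 := ih _ (by
          rw [← hN]
          apply Finset.card_lt_card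
          rw [Finset.ssubset_iff_of_subset]
          · exact ⟨i, Finset.mem_filter.mpr ⟨Finset.mem_univ i, hi⟩, fun h => (Finset.mem_filter.mp h).2 hY₁i⟩
          · intro m hm
            have hm0 := (Finset.mem_filter.mp hm).2
            refine Finset.mem_filter.mpr ⟨Finset.mem_univ m, fun h => hm0 ?_⟩
            by_cases hmi : m = i
            · rw [hmi]; exact hY₁i
            · rw [hY₁ m hmi]; exact h) Y₁ rfl
        have h3 := hpure (-(Pi.single i 1)) (X i)
        have h4 := rule hσ hσ2 hS hM hSb hB hP (v := Pi.single i 1 + Pi.single j 1) (fun y => hpure _ y) h1 h3 (by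
          have e1 : cn σ ((Pi.single i 1 : Fin k → F) + Pi.single j 1) Y₁ = X j := by
            unfold cn
            rw [Finset.sum_eq_single j]
            · rw [Pi.add_apply, Pi.single_eq_of_ne hij, Pi.single_eq_same, zero_add, map_one, one_smul, hY₁ j hij]
            · intro m _ hm
              by_cases hmi : m = i
              · rw [hmi, hY₁i, smul_zero]
              · rw [Pi.add_apply, Pi.single_eq_of_ne hmi, Pi.single_eq_of_ne hm, add_zero, map_zero, zero_smul]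
            · intro h; exact absurd (Finset.mem_univ _) h
          have e2 : cn σ ((Pi.single i 1 : Fin k → F) + Pi.single j 1) (tp (-(Pi.single i 1 : Fin k → F)) (X i)) =
              -(X i) := by
            rw [cn_tp, map_neg, map_add, LinearMap.add_apply, stB_single_left, stB_single_left, Pi.single_eq_same,
              Pi.single_eq_of_ne hij, add_zero, neg_smul, one_smul]
          rw [e1, e2]
          rw [LinearIndependent.pair_iff] at hind ⊢
          intro s t hst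
          have h5 : (-t) • X i + s • X j = 0 := by rw [← hst]; module
          obtain ⟨h6, h7⟩ := hind _ _ h5
          exact ⟨h7, neg_eq_zero.1 h6⟩)
        have e : Y₁ - tp (-(Pi.single i 1 : Fin k → F)) (X i) = X := by
          funext m
          show Y₁ m - (-(Pi.single i (1 : F) : Fin k → F)) m • X i = X m
          by_cases hmi : m = i
          · rw [hmi, hY₁i, Pi.neg_apply, Pi.single_eq_same, neg_smul, one_smul, zero_sub, neg_neg]
          · rw [hY₁ m hmi, Pi.neg_apply, Pi.single_eq_of_ne hmi, neg_zero, zero_smul, sub_zero]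
        rwa [e] at h4
      · push Not at hj
        choose c hc using fun j => Submodule.mem_span_singleton.1 (hj j)
        have e : X = tp c (X i) := by
          funext j
          exact (hc j).symm
        rw [e]
        exact hpure _ _
    · push Not at hX
      have e : X = 0 := funext hX
      rw [e, map_zero, map_zero]
      exact ⟨hasT_zero, hasT_zero⟩

end Gen

end Cfsg.Agent.H594.TensGen
end
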